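import Mathlib.GroupTheory.PGroup
import Mathlib.GroupTheory.GroupAction.Quotient
import Mathlib.Algebra.BigOperators.Group.Finset.Basic
import Mathlib.Data.Set.Card

/-!
Counting lemmas for a finite group acting on a finite invariant set.
-/

set_option autoImplicit false

namespace Cfsg.Agent.Lib.MinIndexU3

open MulAction

variable {G α : Type*} [Group G] [MulAction G α] [Finite α]

/-- An invariant set in which every point is the only fixed point of some `p`-subgroup is one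
orbit. -/
theorem transitive_of_semiregular {p : ℕ} [Fact p.Prime] (K : Subgroup G) (X : Set α)
    (hinv : ∀ g ∈ K, ∀ x ∈ X, g • x ∈ X)
    (hP : ∀ x ∈ X, ∃ P : Subgroup G, P ≤ K ∧ IsPGroup p P ∧ (∀ g ∈ P, g • x = x) ∧
      ∀ y ∈ X, (∀ g ∈ P, g • y = y) → y = x) :
    ∀ x ∈ X, ∀ y ∈ X, ∃ g ∈ K, g • x = y := by
  intro x hx y hy
  by_contra hne
  push Not at hne
  set O : Set α := MulAction.orbit K x
  have hOX : ∀ z ∈ O, z ∈ X := by
    rintro _ ⟨g, rfl⟩; exact hinv _ g.2 _ hx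
  have hxO : x ∈ O := MulAction.mem_orbit_self x
  have hyO : y ∉ O := fun ⟨g, hg⟩ => hne _ g.2 hg
  classical
  have key : ∀ z ∈ X, Nat.card O ≡ (if z ∈ O then 1 else 0) [MOD p] := by
    intro z hz
    obtain ⟨P, hPK, hPp, hPz, huniq⟩ := hP z hz
    have hinvO : ∀ g ∈ P, ∀ w ∈ O, g • w ∈ O := by
      rintro g hg _ ⟨k, rfl⟩
      exact ⟨⟨g, hPK hg⟩ * k, by simp [mul_smul, Subgroup.smul_def]⟩
    let O' : SubMulAction P α := ⟨O, fun g w hw => hinvO _ g.2 w hw⟩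
    have h := hPp.card_modEq_card_fixedPoints O'
    have e : Nat.card (fixedPoints P O') = if z ∈ O then 1 else 0 := by
      split_ifs with hzO
      · rw [Nat.card_eq_one_iff_unique]
        refine ⟨⟨fun a b => Subtype.ext (Subtype.ext ?_)⟩, ⟨⟨⟨z, hzO⟩, fun g => Subtype.ext (hPz _ g.2)⟩⟩⟩
        have : ∀ a : fixedPoints P O', ((a : O') : α) = z := fun a =>
          huniq _ (hOX _ (a : O').2) fun g hg =>
            congrArg Subtype.val (a.2 ⟨g, hg⟩)
        rw [this a, this b]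
      · have : IsEmpty (fixedPoints P O') := ⟨fun a => hzO (by
          rw [← huniq _ (hOX _ (a : O').2) fun g hg => congrArg Subtype.val (a.2 ⟨g, hg⟩)]
          exact (a : O').2)⟩
        exact Nat.card_of_isEmpty
    rwa [e] at h
  have h1 := key x hx
  have h0 := key y hy
  rw [if_pos hxO] at h1
  rw [if_neg hyO] at h0
  exact Nat.Prime.not_dvd_one Fact.out (Nat.modEq_zero_iff_dvd.1 (h1.symm.trans h0))

variable [Finite G]

/-- The stabiliser of a point in a subgroup, times the orbit, is the subgroup. -/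
theorem card_orbit_mul_stab (K : Subgroup G) (x : α) :
    (orbit K x).ncard * Nat.card ↥(K ⊓ stabilizer G x) = Nat.card K := by
  have e : Nat.card ↥(K ⊓ stabilizer G x) = Nat.card (stabilizer K x) :=
    Nat.card_congr ⟨fun g => ⟨⟨g.1, g.2.1⟩, g.2.2⟩, fun g => ⟨g.1.1, g.1.2, g.2⟩,
      fun _ => rfl, fun _ => rfl⟩
  rw [e, ← index_stabilizer, mul_comm, Subgroup.card_mul_index]

/-- Two nontrivial orbits or a small group. -/
theorem two_or_small [DecidableEq α] (K : Subgroup G) (X : Finset α)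
    (hinv : ∀ g ∈ K, ∀ x ∈ X, g • x ∈ X) {k e : ℕ} (he : 0 < e)
    (hk : ∀ x ∈ X, k ∣ Nat.card ↥(K ⊓ stabilizer G x))
    (hsum : ∑ x ∈ X, (Nat.card ↥(K ⊓ stabilizer G x) - k) = Nat.card K + e) :
    Nat.card K ≤ 4 * e ∨ Nat.card K = 6 * e := by
  classical
  set n := Nat.card K
  set a : α → ℕ := fun x => Nat.card ↥(K ⊓ stabilizer G x)
  set O : α → Finset α := fun x => X.filter (· ∈ orbit K x)
  have hO : ∀ x ∈ X, (O x).card * a x = n := fun x hx => by
    refine Eq.trans ?_ (card_orbit_mul_stab K x)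
    rw [← Set.ncard_coe_finset]
    congr 2
    ext z
    simp only [O, Finset.coe_filter, Set.mem_setOf_eq]
    refine ⟨fun h => h.2, fun h => ⟨?_, h⟩⟩
    obtain ⟨g, rfl⟩ := h
    exact hinv _ g.2 _ hx
  have hne : ∀ x, a x ≠ 0 := fun x => Nat.card_pos.ne'
  have hsumO : ∀ x ∈ X, ∑ z ∈ O x, (a z - k) = n - k * (O x).card := by
    intro x hx
    have hconst : ∀ z ∈ O x, a z = a x := by
      intro z hz
      obtain ⟨hzX, hzx⟩ := Finset.mem_filter.1 hz
      have h1 := hO z hzX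
      rw [show O z = O x from Finset.filter_congr fun w _ => by rw [orbit_eq_iff.2 hzx]] at h1
      exact Nat.eq_of_mul_eq_mul_left (Finset.card_pos.2 ⟨z, hz⟩) (h1.trans (hO x hx).symm)
    rw [Finset.sum_congr rfl fun z hz => by rw [hconst z hz], Finset.sum_const, smul_eq_mul,
      Nat.mul_sub, hO x hx, mul_comm k]
  have hbig : ∀ x ∈ X, a x - k ≠ 0 → 2 * (k * (O x).card) ≤ n := by
    intro x hx h
    obtain ⟨c, hc⟩ := hk x hx
    change a x = k * c at hc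
    have hc2 : 2 ≤ c := by
      by_contra h'
      interval_cases c <;> simp [hc] at h
    calc 2 * (k * (O x).card) ≤ c * (k * (O x).card) := Nat.mul_le_mul_right _ hc2
      _ = (O x).card * a x := by rw [hc]; ring
      _ = n := hO x hx
  have pick : ∀ Y : Finset α, 0 < ∑ x ∈ Y, (a x - k) → ∃ x ∈ Y, a x - k ≠ 0 :=
    fun Y h => Finset.exists_ne_zero_of_sum_ne_zero h.ne'
  have split : ∀ x ∈ X, ∀ Y : Finset α, O x ⊆ Y →
      ∑ z ∈ Y, (a z - k) = (n - k * (O x).card) + ∑ z ∈ Y \ O x, (a z - k) := by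
    intro x hx Y h
    rw [← hsumO x hx, add_comm, Finset.sum_sdiff h]
  have closed : ∀ x ∈ X, ∀ y ∈ X, y ∉ O x → O y ⊆ X \ O x := by
    intro x hx y hy hyx z hz
    refine Finset.mem_sdiff.2 ⟨(Finset.mem_filter.1 hz).1, fun hzx => hyx ?_⟩
    refine Finset.mem_filter.2 ⟨hy, ?_⟩
    rw [← orbit_eq_iff.2 (Finset.mem_filter.1 hzx).2, orbit_eq_iff.2 (Finset.mem_filter.1 hz).2]
    exact mem_orbit_self y
  change ∑ x ∈ X, (a x - k) = n + e at hsum
  obtain ⟨x₀, hx₀, hx₀'⟩ := pick X (by omega)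
  have h0 := split x₀ hx₀ X (Finset.filter_subset _ _)
  have b0 := hbig x₀ hx₀ hx₀'
  obtain ⟨x₁, hx₁, hx₁'⟩ := pick (X \ O x₀) (by omega)
  obtain ⟨hx₁X, hx₁0⟩ := Finset.mem_sdiff.1 hx₁
  have h1 := split x₁ hx₁X _ (closed x₀ hx₀ x₁ hx₁X hx₁0)
  have b1 := hbig x₁ hx₁X hx₁'
  by_cases h2 : 0 < ∑ z ∈ (X \ O x₀) \ O x₁, (a z - k)
  · obtain ⟨x₂, hx₂, hx₂'⟩ := pick _ h2
    obtain ⟨hx₂', hx₂1⟩ := Finset.mem_sdiff.1 hx₂
    obtain ⟨hx₂X, hx₂0⟩ := Finset.mem_sdiff.1 hx₂'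
    have hsub : O x₂ ⊆ (X \ O x₀) \ O x₁ := fun z hz => by
      have := closed x₀ hx₀ x₂ hx₂X hx₂0 hz
      have := closed x₁ hx₁X x₂ hx₂X hx₂1 hz
      simp only [Finset.mem_sdiff] at *
      tauto
    have h3 := split x₂ hx₂X _ hsub
    have b2 := hbig x₂ hx₂X (by assumption)
    left; omega
  obtain ⟨c₀, hc₀⟩ := hk x₀ hx₀
  obtain ⟨c₁, hc₁⟩ := hk x₁ hx₁X
  change a x₀ = k * c₀ at hc₀
  change a x₁ = k * c₁ at hc₁
  have e0 : c₀ * (k * (O x₀).card) = n := by rw [← hO x₀ hx₀, hc₀]; ring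
  have e1 : c₁ * (k * (O x₁).card) = n := by rw [← hO x₁ hx₁X, hc₁]; ring
  have g0 : 2 ≤ c₀ := by
    by_contra h'
    interval_cases c₀ <;> simp [hc₀] at hx₀'
  have g1 : 2 ≤ c₁ := by
    by_contra h'
    interval_cases c₁ <;> simp [hc₁] at hx₁'
  generalize k * (O x₀).card = A at *
  generalize k * (O x₁).card = B at *
  have m0 : c₀ = 2 ∨ c₀ = 3 ∨ 4 * A ≤ n := by
    rcases (by omega : c₀ = 2 ∨ c₀ = 3 ∨ 4 ≤ c₀) with h | h | h
    · exact Or.inl h
    · exact Or.inr (Or.inl h)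
    · exact Or.inr (Or.inr (e0 ▸ Nat.mul_le_mul_right A h))
  have m1 : c₁ = 2 ∨ c₁ = 3 ∨ 4 * B ≤ n := by
    rcases (by omega : c₁ = 2 ∨ c₁ = 3 ∨ 4 ≤ c₁) with h | h | h
    · exact Or.inl h
    · exact Or.inr (Or.inl h)
    · exact Or.inr (Or.inr (e1 ▸ Nat.mul_le_mul_right B h))
  rcases m0 with rfl | rfl | h4 <;> rcases m1 with rfl | rfl | h5 <;> omega

end Cfsg.Agent.Lib.MinIndexU3
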