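import Cfsg.Agent.Lib.MinIndexU3.Util

/-!
Small index, no transvection: the centraliser of a homology and its fixed lines.
-/

set_option autoImplicit false

namespace Cfsg.Agent.Lib.MinIndexU3

open Matrix MulAction Cfsg.Agent.Lib.AutPSU Cfsg.Agent.Lib.Classical

universe u

variable {F : Type u} [Field F] [Fintype F] {q : ℕ} (hF : Fintype.card F = q ^ 2)

local notation "V" => (Fin 3 → F)

/-- The elements of a subgroup fixing all lines orthogonal to a vector. -/
def Kall (C : Subgroup (S 3 F q)) (w : Fin 3 → F) : Subgroup (S 3 F q) where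
  carrier := {c | c ∈ C ∧ ∀ L ∈ lw q w, c • L = L}
  one_mem' := ⟨one_mem C, fun L _ => one_smul _ L⟩
  mul_mem' := fun {a b} ha hb => ⟨mul_mem ha.1 hb.1, fun L hL => by
    rw [mul_smul, hb.2 L hL, ha.2 L hL]⟩
  inv_mem' := fun {a} ha => ⟨inv_mem ha.1, fun L hL => by
    conv_lhs => rw [← ha.2 L hL]
    exact inv_smul_smul a L⟩

variable (H : Subgroup (S 3 F q)) (hidx : H.index ≤ q ^ 3)
variable {e f y : Fin 3 → F} (h : Frame q e f y) {t : ℕ} (hG : Good H e t)
variable (hA : H ⊓ Tsub q e = ⊥)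
variable {z : S 3 F q} {l ν : F} (hzH : z ∈ H) (hze : mat z *ᵥ e = l • e)
  (hzf : mat z *ᵥ f = l • f) (hzy : mat z *ᵥ y = ν • y) (hl : l ^ (q + 1) = 1) (hνl : ν ≠ l)

include hF h hze hzf hzy in
theorem zform (v : V) : mat z *ᵥ v = l • v + ((ν - l) * hm q v y) • y := by
  conv_lhs => rw [h.expand hF v]
  conv_rhs => rw [h.expand hF v]
  simp only [mulVec_add, mulVec_smul, hze, hzf, hzy, hm_add_left, hm_smul_left', (h.swap hF).1,
    (h.swap hF).2, h.N]
  module

include hF h hze hzf hzy hνl in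
/-- The fixed isotropic points of the homology are orthogonal to its centre. -/
theorem fixed_iso {v : V} (hv : Valid q v) {a : F} (ha : mat z *ᵥ v = a • v) :
    hm q v y = 0 ∧ a = l := by
  have h1 := zform hF h hze hzf hzy v
  rw [ha] at h1
  have h2 : ((ν - l) * hm q v y) • y = (a - l) • v := by
    linear_combination (norm := module) -h1
  have h3 := congrArg (fun u => hm q u u) h2
  simp only [hm_smul_left', hm_smul_right, hv.2, h.N, mul_zero, mul_one] at h3
  have h4 : (ν - l) * hm q v y = 0 := by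
    rcases mul_eq_zero.1 h3 with h4 | h4 <;>
      first
        | exact h4
        | exact (pow_eq_zero_iff (n := q) (by have := Herm.two_le_q hF; omega)).1 h4
  refine ⟨(mul_eq_zero.1 h4).resolve_left (sub_ne_zero.2 hνl), ?_⟩
  rw [h4, zero_smul] at h2
  exact sub_eq_zero.1 ((smul_eq_zero.1 h2.symm).resolve_right hv.1)

include hF h hze hzf hzy hνl in
theorem centralizer_eig {c : S 3 F q} (hc : c ∈ Subgroup.centralizer {z}) :
    ∃ μ : F, μ ≠ 0 ∧ mat c *ᵥ y = μ • y := by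
  have hcomm := Subgroup.mem_centralizer_iff.1 hc z rfl
  have h1 : mat z *ᵥ (mat c *ᵥ y) = ν • (mat c *ᵥ y) := by
    rw [mulVec_mulVec, ← mat_mul, hcomm, mat_mul, ← mulVec_mulVec, hzy, mulVec_smul]
  rw [zform hF h hze hzf hzy] at h1
  have h2 : (ν - l) • (mat c *ᵥ y - hm q (mat c *ᵥ y) y • y) = 0 := by
    linear_combination (norm := module) -h1
  have h3 := sub_eq_zero.1 ((smul_eq_zero.1 h2).resolve_left (sub_ne_zero.2 hνl))
  exact ⟨_, fun h0 => mulVec_ne_zero c h.y_ne (by rw [h3, h0, zero_smul]), h3⟩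

include hF hidx h hA hze hzf hzy hνl in
/-- An element of the centraliser fixing an isotropic vector of the plane is trivial. -/
theorem cent_inj {v : V} (hv : Valid q v) (hvy : hm q v y = 0) {c : S 3 F q} (hcH : c ∈ H)
    (hc : c ∈ Subgroup.centralizer {z}) (hcv : mat c *ᵥ v = v) : c = 1 := by
  obtain ⟨μ, -, hμ⟩ := centralizer_eig hF h hze hzf hzy hνl hc
  obtain ⟨g, h'⟩ := exists_frame_perp hF hv hvy h.N
  obtain ⟨a, d, hp, rfl⟩ := fix_e_eq hF h' hcv
  rw [Uc_y hF h' hp] at hμ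
  have h1 := congrArg (fun u => hm q u g) hμ
  simp [hm_sub_left, hm_smul_left', h'.W.2, h'.P.ef] at h1
  have hmem : Uc hF v y a d ∈ H ⊓ Tsub q v := ⟨hcH, (mem_Tsub_iff hF h').2 ⟨hcv, by
    rw [Uc_f hF h' hp, (h'.pv_coord hF a d).2.2]
    exact (pow_eq_zero_iff (n := q) (by have := Herm.two_le_q hF; omega)).1 (by simpa using h1)⟩⟩
  have hbot : H ⊓ Tsub q v = ⊥ := Subgroup.eq_bot_of_card_eq _ (by
    rw [card_Tsub_inf hF H hidx hv h.P.valid_e, hA, Subgroup.card_bot])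
  rwa [hbot, Subgroup.mem_bot] at hmem

include hF hidx h hG hA hze hzf hzy hνl in
theorem cent_stab_le {L : Line F} (hL : L ∈ lw q y) (hi : Iso q L) :
    Nat.card ↥(H ⊓ Subgroup.centralizer {z} ⊓ stabilizer (S 3 F q) L) ≤ t := by
  have hv : Valid q L.rep := ⟨L.rep_nonzero, hi⟩
  obtain ⟨g, h'⟩ := exists_frame_perp hF hv (mem_lw.1 hL) h.N
  have key : ∀ s : ↥(H ⊓ Subgroup.centralizer {z} ⊓ stabilizer (S 3 F q) L),
      mat (s : S 3 F q) *ᵥ L.rep = hm q (mat (s : S 3 F q) *ᵥ L.rep) g • L.rep := fun s => by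
    obtain ⟨a, -, ha⟩ := (fix_line_iff _ L).1 s.2.2
    rw [ha, hm_smul_left', h'.P.ef, mul_one]
  refine (Nat.card_le_card_of_injective (fun s : ↥(H ⊓ Subgroup.centralizer {z} ⊓
      stabilizer (S 3 F q) L) => (⟨hm q (mat (s : S 3 F q) *ᵥ L.rep) g, ?_⟩ : {a : F // a ^ t = 1}))
    fun s s' hh => ?_).trans (card_roots_one hF hG.dvd).le
  · exact (hG.eig _).1 (eig_transfer hF H hidx h hv s.2.1.1 (key s))
  · have h1 : mat ((s : S 3 F q)⁻¹ * (s' : S 3 F q)) *ᵥ L.rep = L.rep := by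
      have hh' : hm q (mat (s : S 3 F q) *ᵥ L.rep) g = hm q (mat (s' : S 3 F q) *ᵥ L.rep) g :=
        congrArg Subtype.val hh
      rw [mat_mul, ← mulVec_mulVec, key s', ← hh', ← key s, mulVec_inv_cancel]
    exact Subtype.ext (inv_mul_eq_one.1 (cent_inj hF H hidx h hA hze hzf hzy hνl hv (mem_lw.1 hL)
      (H.mul_mem (H.inv_mem s.2.1.1) s'.2.1.1)
      (mul_mem (inv_mem s.2.1.2) s'.2.1.2) h1))

include hF hidx h hG hzH hze hzf hzy hνl in
/-- The centraliser is large. -/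
theorem cent_large : (q + 1) * t ≤ Nat.card ↥(H ⊓ Subgroup.centralizer {z}) := by
  classical
  set C := H ⊓ Subgroup.centralizer {z}
  set Hs := (Set.toFinite (H : Set (S 3 F q))).toFinset with hHs
  have memHs : ∀ {k}, k ∈ Hs ↔ k ∈ H := fun {k} => by simp [Hs]
  set Zs := Hs.image (fun k => k * z * k⁻¹)
  have hfib : ∀ b ∈ Zs, (Hs.filter fun k => k * z * k⁻¹ = b).card = Nat.card C := by
    intro b hb
    obtain ⟨k₀, hk₀, rfl⟩ := Finset.mem_image.1 hb
    rw [← card_toFinset C]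
    refine Finset.card_bij (fun k _ => k₀⁻¹ * k) (fun k hk => ?_) (fun _ _ _ _ hh => mul_left_cancel hh)
      (fun c hc => ⟨k₀ * c, ?_, inv_mul_cancel_left k₀ c⟩)
    · obtain ⟨hk, hkz⟩ := Finset.mem_filter.1 hk
      rw [Set.Finite.mem_toFinset]
      refine ⟨H.mul_mem (H.inv_mem (memHs.1 hk₀)) (memHs.1 hk), Subgroup.mem_centralizer_iff.2 ?_⟩
      rintro x rfl
      have h1 := congrArg (fun x => k₀⁻¹ * x * k) hkz
      simp only [← mul_assoc, inv_mul_cancel_right, inv_mul_cancel, one_mul] at h1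
      rw [← mul_assoc]
      exact h1.symm
    · rw [Set.Finite.mem_toFinset] at hc
      refine Finset.mem_filter.2 ⟨memHs.2 (H.mul_mem (memHs.1 hk₀) hc.1), ?_⟩
      have h1 := Subgroup.mem_centralizer_iff.1 hc.2 z rfl
      rw [_root_.mul_inv_rev, mul_assoc k₀ c z, ← h1]
      group
  have hcount : Zs.card * Nat.card C = Nat.card H := by
    rw [← card_toFinset H]
    show _ = Hs.card
    rw [Finset.card_eq_sum_card_image (fun k => k * z * k⁻¹) Hs,
      Finset.sum_congr rfl hfib, Finset.sum_const, smul_eq_mul]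
  have hinc : Zs.card * (q + 1) ≤ (pts q : Finset (Line F)).card * Nat.card ↥(H ⊓ Fix q e) := by
    refine Finset.card_mul_le_card_mul (fun (z' : S 3 F q) (L : Line F) => z' • L = L) ?_ ?_
    · intro b hb
      obtain ⟨k, hk, rfl⟩ := Finset.mem_image.1 hb
      rw [← card_lw_iso hF h]
      refine Finset.card_le_card_of_injOn (fun L => k • L) ?_ (fun _ _ _ _ hh => smul_left_cancel k hh)
      intro L hL
      simp only [Finset.mem_coe, Finset.mem_filter] at hL
      simp only [Finset.mem_coe, Finset.mem_bipartiteAbove]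
      refine ⟨mem_pts.2 ((iso_smul hF k L).2 hL.2), ?_⟩
      have hzL : z • L = L := by
        have hl0 : l ≠ 0 := fun h0 => mulVec_ne_zero z h.P.e_ne (by rw [hze, h0, zero_smul])
        refine (fix_line_iff z L).2 ⟨l, hl0, ?_⟩
        rw [zform hF h hze hzf hzy, show hm q L.rep y = 0 from mem_lw.1 hL.1, mul_zero, zero_smul,
          add_zero]
      rw [mul_smul, mul_smul, inv_smul_smul, hzL]
    · intro L hL
      have hv := valid_rep hF hL
      have key : ∀ z' ∈ Finset.bipartiteBelow (fun (z' : S 3 F q) (L : Line F) => z' • L = L) Zs L,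
          z' ∈ H ∧ mat z' *ᵥ L.rep = l • L.rep := by
        intro z' hz'
        obtain ⟨hz', hfix⟩ := (Finset.mem_bipartiteBelow _).1 hz'
        obtain ⟨k, hk, rfl⟩ := Finset.mem_image.1 hz'
        refine ⟨H.mul_mem (H.mul_mem (memHs.1 hk) hzH) (H.inv_mem (memHs.1 hk)), ?_⟩
        obtain ⟨a, -, ha⟩ := (fix_line_iff _ L).1 hfix
        have h1 : mat z *ᵥ (mat k⁻¹ *ᵥ L.rep) = a • (mat k⁻¹ *ᵥ L.rep) := by
          rw [← mulVec_smul, ← ha, mat_mul, mat_mul, ← mulVec_mulVec, ← mulVec_mulVec,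
            mulVec_inv_cancel]
        obtain ⟨-, rfl⟩ := fixed_iso hF h hze hzf hzy hνl
          (v := mat k⁻¹ *ᵥ L.rep) ⟨mulVec_ne_zero _ hv.1, by rw [iso, hv.2]⟩ h1
        exact ha
      rcases (Finset.bipartiteBelow (fun (z' : S 3 F q) (L : Line F) => z' • L = L) Zs L).eq_empty_or_nonempty
        with h0 | ⟨z₁, hz₁⟩
      · rw [h0, Finset.card_empty]; exact Nat.zero_le _
      rw [card_Fix_inf hF H hidx h.P.valid_e hv, ← card_toFinset (H ⊓ Fix q L.rep)]
      refine Finset.card_le_card_of_injOn (fun z' => z₁⁻¹ * z') ?_ (fun _ _ _ _ hh => mul_left_cancel hh)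
      intro z' hz'
      simp only [Set.Finite.coe_toFinset, SetLike.mem_coe]
      obtain ⟨k1, k2⟩ := key z₁ hz₁
      obtain ⟨k3, k4⟩ := key z' hz'
      refine ⟨H.mul_mem (H.inv_mem k1) k3, ?_⟩
      show mat (z₁⁻¹ * z') *ᵥ L.rep = L.rep
      rw [mat_mul, ← mulVec_mulVec, k4, ← k2, mulVec_inv_cancel]
  rw [card_pts hF h] at hinc
  have h2 := Nat.mul_le_mul_right (Nat.card C) hinc
  rw [mul_right_comm, hcount, hG.cardH] at h2
  have hr : 0 < Nat.card ↥(H ⊓ Fix q e) := Nat.card_pos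
  refine Nat.le_of_mul_le_mul_left ?_ (show 0 < (q ^ 3 + 1) * Nat.card ↥(H ⊓ Fix q e) by positivity)
  calc (q ^ 3 + 1) * Nat.card ↥(H ⊓ Fix q e) * ((q + 1) * t)
      = (q ^ 3 + 1) * (Nat.card ↥(H ⊓ Fix q e) * t) * (q + 1) := by ring
    _ ≤ _ := h2

include hF hidx h hG hA hzH hze hzf hzy hνl in
theorem cent_exact {L : Line F} (hL : L ∈ lw q y) (hi : Iso q L) :
    Nat.card ↥(H ⊓ Subgroup.centralizer {z}) = (q + 1) * t ∧
      Nat.card ↥(H ⊓ Subgroup.centralizer {z} ⊓ stabilizer (S 3 F q) L) = t := by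
  classical
  set C := H ⊓ Subgroup.centralizer {z}
  have h1 := cent_stab_le hF H hidx h hG hA hze hzf hzy hνl hL hi
  have h2 := cent_large hF H hidx h hG hzH hze hzf hzy hνl
  have h3 := card_orbit_mul_stab C L
  have h4 : (orbit C L).ncard ≤ q + 1 := by
    rw [← card_lw_iso hF h, ← Set.ncard_coe_finset]
    refine Set.ncard_le_ncard ?_
    rintro _ ⟨g, rfl⟩
    simp only [Finset.coe_filter, Set.mem_setOf_eq, mem_lw]
    obtain ⟨μ, hμ, hgy⟩ := centralizer_eig hF h hze hzf hzy hνl g.2.2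
    exact ⟨(perp_smul hF _ hμ hgy L).2 (mem_lw.1 hL), (iso_smul hF _ L).2 hi⟩
  have ht : 0 < t := Nat.pos_of_ne_zero fun h0 => by
    have := hG.cardH
    rw [h0, mul_zero, mul_zero] at this
    exact Nat.card_pos.ne' this
  refine ⟨le_antisymm (h3 ▸ Nat.mul_le_mul h4 h1) h2, le_antisymm h1 ?_⟩
  refine Nat.le_of_mul_le_mul_left ?_ (show 0 < q + 1 by omega)
  exact h2.trans (h3 ▸ Nat.mul_le_mul_right _ h4)

include hF hidx h hG hA hzH hze hzf hzy hνl in
/-- An element with eigenvalue of norm one is scalar on the plane. -/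
theorem cent_scalar {v : V} (hv : Valid q v) (hvy : hm q v y = 0) {c : S 3 F q}
    (hcC : c ∈ H ⊓ Subgroup.centralizer {z}) {a : F} (hcv : mat c *ᵥ v = a • v)
    (ha : a ^ (q + 1) = 1) : c ∈ Kall (H ⊓ Subgroup.centralizer {z}) y := by
  have hq := Herm.two_le_q hF
  have ha0 : a ≠ 0 := fun h0 => by rw [h0, zero_pow (by omega)] at ha; exact zero_ne_one ha
  obtain ⟨g, h'⟩ := exists_frame_perp hF hv hvy h.N
  obtain ⟨μ, hμ0, hμ⟩ := centralizer_eig hF h hze hzf hzy hνl hcC.2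
  obtain ⟨-, ⟨b, d, hcg⟩⟩ := stab_shape hF h' ha0 hcv
  have hb : b = 0 := by
    have h1 := iso c g y
    rw [hcg, hμ] at h1
    simp [hm_add_left, hm_smul_left', hm_smul_right, hvy, (h'.swap hF).2, h'.N] at h1
    exact h1.resolve_left fun hh => hμ0 hh.1
  rw [hb, zero_smul, add_zero] at hcg
  have haq : (a ^ q)⁻¹ = a := by
    rw [pow_succ] at ha
    exact (eq_inv_of_mul_eq_one_left (by linear_combination ha)).symm
  rw [haq] at hcg
  obtain ⟨h1, h2⟩ := pow_triangular hcv hcg (q + 1)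
  have hone : c ^ (q + 1) = 1 := by
    refine cent_inj hF H hidx h hA hze hzf hzy hνl hv hvy (H.pow_mem hcC.1 _) (pow_mem hcC.2 _) ?_
    rw [h1, ha, one_smul]
  rw [hone, mat_one, one_mulVec, pow_succ _ (q + 1), ha, one_mul] at h2
  have hd := congrArg (fun v => hm q v g) h2
  simp [hm_add_left, hm_smul_left', h'.P.ef, h'.P.ff, cast_q hF] at hd
  rw [← hd, zero_smul, add_zero] at hcg
  refine ⟨hcC, fun L hL => (fix_line_iff c L).2 ⟨a, ha0, ?_⟩⟩
  rw [h'.expand hF L.rep, show hm q L.rep y = 0 from mem_lw.1 hL]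
  simp only [mulVec_add, mulVec_smul, hcv, hcg, zero_smul, mulVec_zero]
  module

include hF hidx h hG hA hzH hze hzf hzy hνl in
theorem fixed_two {c : S 3 F q} (hc : c ∈ H ⊓ Subgroup.centralizer {z})
    (hcK : c ∉ Kall (H ⊓ Subgroup.centralizer {z}) y) [DecidablePred fun L : Line F => c • L = L] :
    ((lw q y).filter fun L => c • L = L).card = 2 := by
  classical
  obtain ⟨μ, hμ0, hμ⟩ := centralizer_eig hF h hze hzf hzy hνl hc.2
  rcases plane_dichotomy hF h hμ0 hμ with ⟨v, hv, hvy, a, hcv⟩ |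
    ⟨a, b, α, β, hay, hby, haa, hbb, -, hga, hgb, hab⟩
  · have ha0 : a ≠ 0 := fun h0 => mulVec_ne_zero c hv.1 (by rw [hcv, h0, zero_smul])
    have hne : (a ^ q)⁻¹ ≠ a := fun h0 => hcK
      (cent_scalar hF H hidx h hG hA hzH hze hzf hzy hνl hv hvy hc hcv (by
        rw [pow_succ]
        nth_rewrite 2 [← h0]
        exact mul_inv_cancel₀ (pow_ne_zero _ ha0)))
    obtain ⟨g, h'⟩ := exists_frame_perp hF hv hvy h.N
    obtain ⟨-, ⟨x, d, hcg⟩⟩ := stab_shape hF h' ha0 hcv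
    have hx : x = 0 := by
      have h1 := iso c g y
      rw [hcg, hμ] at h1
      simp [hm_add_left, hm_smul_left', hm_smul_right, hvy, (h'.swap hF).2, h'.N] at h1
      exact h1.resolve_left fun hh => hμ0 hh.1
    rw [hx, zero_smul, add_zero] at hcg
    set δ := d / ((a ^ q)⁻¹ - a) with hδ'
    have hδ : δ * ((a ^ q)⁻¹ - a) = d := div_mul_cancel₀ _ (sub_ne_zero.2 hne)
    set g' := g + δ • v with hg'
    have hg'y : hm q g' y = 0 := by simp [g', hm_add_left, hm_smul_left', hvy, (h'.swap hF).2]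
    have hg'ne : g' ≠ 0 := fun h0 => by
      have := congrArg (fun u => hm q u v) h0
      simp [g', hm_add_left, hm_smul_left', h'.P.fe, h'.P.ee, hm_zero_left] at this
    have hcg' : mat c *ᵥ g' = (a ^ q)⁻¹ • g' := by
      simp only [g', mulVec_add, mulVec_smul, hcg, hcv]
      match_scalars <;> first | linear_combination -hδ | ring
    obtain ⟨he, hne'⟩ := fixed_pair hF h hg'y hvy hg'ne hv.1 hcg' hcv hne
    convert Finset.card_pair hne' using 2
    convert he using 2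
  · have ha0 : a ≠ 0 := fun h0 => haa (by rw [h0, hm_zero_left])
    have hb0 : b ≠ 0 := fun h0 => hbb (by rw [h0, hm_zero_left])
    obtain ⟨he, hne'⟩ := fixed_pair hF h hay hby ha0 hb0 hga hgb hab
    convert Finset.card_pair hne' using 2
    convert he using 2

include hF hidx h hG hA hzH hze hzf hzy hνl in
theorem card_Kall : Nat.card (Kall (H ⊓ Subgroup.centralizer {z}) y) = Nat.gcd t (q + 1) := by
  classical
  set C := H ⊓ Subgroup.centralizer {z}
  have hd : Nat.gcd t (q + 1) ∣ q ^ 2 - 1 := (Nat.gcd_dvd_left _ _).trans hG.dvd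
  have heL : ln h.P.e_ne ∈ lw q y := mem_lw.2 (perp_e hF h)
  have hfL : ln h.P.f_ne ∈ lw q y := mem_lw.2 ((perp_ln hF _).2 (h.swap hF).2)
  rw [← card_roots_one hF hd]
  refine Nat.card_eq_of_bijective (fun c : Kall C y =>
    (⟨hm q (mat (c : S 3 F q) *ᵥ e) f, ?_⟩ : {a : F // a ^ Nat.gcd t (q + 1) = 1}))
    ⟨fun c c' hh => ?_, fun a => ?_⟩
  · obtain ⟨a, -, ha⟩ := (fix_ln_iff _ _).1 (c.2.2 _ heL)
    obtain ⟨b, -, hb⟩ := (fix_ln_iff _ _).1 (c.2.2 _ hfL)
    have hsum : hm q (e + f) e = 1 := by rw [hm_add_left, h.P.ee, h.P.fe, zero_add]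
    have hef : e + f ≠ 0 := fun h0 => by rw [h0, hm_zero_left] at hsum; exact zero_ne_one hsum
    obtain ⟨d, -, hd'⟩ := (fix_ln_iff _ hef).1 (c.2.2 _ (mem_lw.2 ((perp_ln hF _).2 (by
      rw [hm_add_left, (h.swap hF).1, (h.swap hF).2, add_zero]))))
    rw [mulVec_add, ha, hb, smul_add] at hd'
    have h1 := congrArg (fun u => hm q u e) hd'
    have h2 := congrArg (fun u => hm q u f) hd'
    simp [hm_add_left, hm_smul_left', h.P.ee, h.P.fe, h.P.ef, h.P.ff] at h1 h2
    have hab : a = b := h2.trans h1.symm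
    have hn : a ^ (q + 1) = 1 := by
      have h3 := iso (c : S 3 F q) e f
      rw [ha, hb, hm_smul_left', hm_smul_right, h.P.ef, mul_one, ← hab] at h3
      rw [pow_succ', h3]
    rw [ha, hm_smul_left', h.P.ef, mul_one]
    exact pow_gcd_eq_one.2 ⟨(hG.eig a).1 ⟨c, c.2.1.1, ha⟩, hn⟩
  · have hh' : hm q (mat (c : S 3 F q) *ᵥ e) f = hm q (mat (c' : S 3 F q) *ᵥ e) f :=
      congrArg Subtype.val hh
    obtain ⟨a, -, ha⟩ := (fix_ln_iff _ _).1 (c.2.2 _ heL)
    obtain ⟨b, -, hb⟩ := (fix_ln_iff _ _).1 (c'.2.2 _ heL)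
    rw [ha, hb, hm_smul_left', hm_smul_left', h.P.ef, mul_one, mul_one] at hh'
    subst hh'
    refine Subtype.ext (inv_mul_eq_one.1 (cent_inj hF H hidx h hA hze hzf hzy hνl h.P.valid_e
      (h.swap hF).1 (H.mul_mem (H.inv_mem c.2.1.1) c'.2.1.1) (mul_mem (inv_mem c.2.1.2) c'.2.1.2) ?_))
    rw [mat_mul, ← mulVec_mulVec, hb, ← ha, mulVec_inv_cancel]
  · obtain ⟨hat, han⟩ := pow_gcd_eq_one.1 a.2
    obtain ⟨-, hst⟩ := cent_exact hF H hidx h hG hA hzH hze hzf hzy hνl heL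
      ((iso_ln hF _).2 h.P.ee)
    have key : ∀ s : ↥(C ⊓ stabilizer (S 3 F q) (ln h.P.e_ne)),
        mat (s : S 3 F q) *ᵥ e = hm q (mat (s : S 3 F q) *ᵥ e) f • e := fun s => by
      obtain ⟨b, -, hb⟩ := (fix_ln_iff _ _).1 s.2.2
      rw [hb, hm_smul_left', h.P.ef, mul_one]
    let φ : ↥(C ⊓ stabilizer (S 3 F q) (ln h.P.e_ne)) → {b : F // b ^ t = 1} := fun s =>
      ⟨_, (hG.eig _).1 ⟨s, s.2.1.1, key s⟩⟩
    have hφ : Function.Injective φ := fun s s' hh => by
      have hh' : hm q (mat (s : S 3 F q) *ᵥ e) f = hm q (mat (s' : S 3 F q) *ᵥ e) f :=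
        congrArg Subtype.val hh
      refine Subtype.ext (inv_mul_eq_one.1 (cent_inj hF H hidx h hA hze hzf hzy hνl h.P.valid_e
        (h.swap hF).1 (H.mul_mem (H.inv_mem s.2.1.1) s'.2.1.1) (mul_mem (inv_mem s.2.1.2) s'.2.1.2) ?_))
      rw [mat_mul, ← mulVec_mulVec, key s', ← hh', ← key s, mulVec_inv_cancel]
    obtain ⟨s, hs⟩ := ((Nat.bijective_iff_injective_and_card φ).2
      ⟨hφ, by rw [hst, card_roots_one hF hG.dvd]⟩).2 ⟨a.1, hat⟩
    have hs' : hm q (mat (s : S 3 F q) *ᵥ e) f = a.1 := congrArg Subtype.val hs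
    refine ⟨⟨s.1, cent_scalar hF H hidx h hG hA hzH hze hzf hzy hνl h.P.valid_e (h.swap hF).1
      s.2.1 (a := a.1) ?_ han⟩, Subtype.ext hs'⟩
    rw [key s, hs']

include hF hidx h hG hA hzH hze hzf hzy hνl in
/-- The counting of fixed lines. -/
theorem caseA_bound : (q + 1) * t ≤ 4 * (Nat.gcd t (q + 1) * (q - 1)) ∨
    (q + 1) * t = 6 * (Nat.gcd t (q + 1) * (q - 1)) := by
  classical
  have hq := Herm.two_le_q hF
  set C := H ⊓ Subgroup.centralizer {z}
  set k := Nat.gcd t (q + 1)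
  have hk := card_Kall hF H hidx h hG hA hzH hze hzf hzy hνl
  obtain ⟨hC, -⟩ := cent_exact hF H hidx h hG hA hzH hze hzf hzy hνl
    (mem_lw.2 (perp_e hF h)) ((iso_ln hF _).2 h.P.ee)
  have hKC : Kall C y ≤ C := fun _ hc => hc.1
  have hKst : ∀ L ∈ lw q y, Kall C y ≤ C ⊓ stabilizer (S 3 F q) L :=
    fun L hL c hc => ⟨hc.1, hc.2 L hL⟩
  set Cs := (Set.toFinite (C : Set (S 3 F q))).toFinset
  have hsum := sum_stab C (lw q y)
  rw [← Finset.sum_filter_add_sum_filter_not (lw q y) (Iso q) (fun L => Nat.card ↥(C ⊓ stabilizer (S 3 F q) L)),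
    ← Finset.sum_filter_add_sum_filter_not Cs (fun c => c ∈ Kall C y)] at hsum
  rw [Finset.sum_congr rfl (s₁ := (lw q y).filter (Iso q)) (g := fun _ => t) (fun L hL =>
      (cent_exact hF H hidx h hG hA hzH hze hzf hzy hνl (Finset.mem_filter.1 hL).1
        (Finset.mem_filter.1 hL).2).2),
    Finset.sum_congr rfl (s₁ := Cs.filter fun c => c ∈ Kall C y) (g := fun _ => q ^ 2 + 1)
      (fun c hc => by
        rw [Finset.filter_eq_self.2 fun L hL => (Finset.mem_filter.1 hc).2.2 L hL, card_lw hF h]),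
    Finset.sum_congr rfl (s₁ := Cs.filter fun c => c ∉ Kall C y) (g := fun _ => 2)
      (fun c hc => fixed_two hF H hidx h hG hA hzH hze hzf hzy hνl
        ((Set.Finite.mem_toFinset _).1 (Finset.mem_filter.1 hc).1) (Finset.mem_filter.1 hc).2),
    Finset.sum_const, Finset.sum_const, Finset.sum_const, smul_eq_mul, smul_eq_mul, smul_eq_mul,
    card_lw_iso hF h] at hsum
  have hKs : (Cs.filter fun c => c ∈ Kall C y).card = k := by
    rw [show Cs.filter (fun c => c ∈ Kall C y) = (Set.toFinite (Kall C y : Set (S 3 F q))).toFinset by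
      ext c
      simp only [Cs, Finset.mem_filter, Set.Finite.mem_toFinset, SetLike.mem_coe]
      exact ⟨fun hc => hc.2, fun hc => ⟨hKC hc, hc⟩⟩, card_toFinset, hk]
  have hsplit := Finset.card_filter_add_card_filter_not (s := Cs) (fun c => c ∈ Kall C y)
  rw [show Cs.card = (q + 1) * t from (card_toFinset C).trans hC, hKs] at hsplit
  rw [hKs] at hsum
  set X := (lw q y).filter fun L => ¬Iso q L
  have hX := card_lw_aniso hF h
  change X.card + q = q ^ 2 at hX
  have hge : ∀ L ∈ X, k ∣ Nat.card ↥(C ⊓ stabilizer (S 3 F q) L) := fun L hL =>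
    (dvd_of_eq hk.symm).trans (Subgroup.card_dvd_of_le (hKst L (Finset.mem_filter.1 hL).1))
  have hge' : ∀ L ∈ X, k ≤ Nat.card ↥(C ⊓ stabilizer (S 3 F q) L) := fun L hL =>
    Nat.le_of_dvd Nat.card_pos (hge L hL)
  have hkpos : 0 < k := Nat.gcd_pos_of_pos_right _ (by omega)
  have hS : ∑ L ∈ X, (Nat.card ↥(C ⊓ stabilizer (S 3 F q) L) - k) =
      Nat.card C + k * (q - 1) := by
    rw [Finset.sum_tsub_distrib X hge', Finset.sum_const, smul_eq_mul, hC]
    obtain ⟨p, rfl⟩ : ∃ p, q = p + 1 := ⟨q - 1, by omega⟩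
    simp only [Nat.add_sub_cancel]
    have e1 : X.card * k + (p + 1) * k = (p + 1) * (p + 1) * k := by
      rw [← add_mul, hX, sq]
    have e2 : k * ((p + 1) ^ 2 + 1) = (p + 1) * (p + 1) * k + k := by ring
    rw [e2] at hsum
    have e3 : k * p + k = (p + 1) * k := by ring
    omega
  have := two_or_small C X (fun g hg L hL => by
      obtain ⟨μ, hμ, hgy⟩ := centralizer_eig hF h hze hzf hzy hνl hg.2
      simp only [X, Finset.mem_filter, mem_lw] at hL ⊢
      exact ⟨(perp_smul hF _ hμ hgy L).2 hL.1, fun hi => hL.2 ((iso_smul hF g L).1 hi)⟩)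
    (e := k * (q - 1)) (Nat.mul_pos hkpos (by omega)) hge hS
  rwa [hC] at this

end Cfsg.Agent.Lib.MinIndexU3
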