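import Cfsg.Agent.Lib.MinIndexU3.Util
import Cfsg.Agent.Lib.Classical.SUThreeInv
import Mathlib.GroupTheory.Sylow
import Mathlib.GroupTheory.Transfer
import Mathlib.GroupTheory.SpecificGroups.Cyclic

/-!
Tools for the small fields: fixed points of elements of prime order and their centralisers.
-/

set_option autoImplicit false

namespace Cfsg.Agent.Lib.MinIndexU3

open Matrix MulAction Cfsg.Agent.Lib.AutPSU Cfsg.Agent.Lib.Classical

universe u

/-- An element of prime order fixes a point of an invariant set of order prime to it. -/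
theorem exists_fixed_of_prime {G α : Type*} [Group G] [MulAction G α] [Finite α] {p : ℕ}
    [Fact p.Prime] {g : G} (hg : g ^ p = 1) (X : Finset α) (hinv : ∀ x ∈ X, g • x ∈ X)
    (hX : ¬p ∣ X.card) : ∃ x ∈ X, g • x = x := by
  classical
  let P := Subgroup.zpowers g
  have hP : IsPGroup p P := fun x => by
    obtain ⟨k, hk⟩ := Subgroup.mem_zpowers_iff.1 x.2
    refine ⟨1, Subtype.ext ?_⟩
    rw [pow_one, SubgroupClass.coe_pow, ← hk, ← zpow_natCast, ← _root_.zpow_mul, mul_comm, _root_.zpow_mul,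
      zpow_natCast, hg, _root_.one_zpow, Subgroup.coe_one]
  have hinvP : ∀ a ∈ P, ∀ x ∈ X, a • x ∈ X := by
    have hpow : ∀ n : ℕ, ∀ x ∈ X, g ^ n • x ∈ X := fun n => by
      induction n with
      | zero => intro x hx; rwa [pow_zero, one_smul]
      | succ n ih => intro x hx; rw [pow_succ', mul_smul]; exact hinv _ (ih x hx)
    intro a ha x hx
    have hfin : IsOfFinOrder g := isOfFinOrder_iff_pow_eq_one.2 ⟨p, (Fact.out : p.Prime).pos, hg⟩
    obtain ⟨n, rfl⟩ := hfin.mem_powers_iff_mem_zpowers.2 ha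
    exact hpow n x hx
  let X' : SubMulAction P α := ⟨X, fun a x hx => hinvP _ a.2 x hx⟩
  have h := hP.card_modEq_card_fixedPoints X'
  have hc : Nat.card X' = X.card := by
    show Nat.card {x // x ∈ X} = _
    rw [Nat.card_eq_fintype_card, Fintype.card_coe]
  rw [hc] at h
  rcases isEmpty_or_nonempty (fixedPoints P X') with h0 | ⟨⟨⟨x, hx⟩, hfix⟩⟩
  · rw [Nat.card_of_isEmpty] at h
    exact absurd (Nat.modEq_zero_iff_dvd.1 h) hX
  · exact ⟨x, hx, congrArg Subtype.val (hfix ⟨g, Subgroup.mem_zpowers g⟩)⟩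

open Subgroup in
/-- The normaliser of a Sylow subgroup of prime order. -/
theorem sylow_prime_facts {G : Type*} [Group G] [Finite G] {ℓ m : ℕ} [hℓ : Fact ℓ.Prime]
    (hG : Nat.card G = ℓ * m) (hm : ¬ℓ ∣ m) {y : G} (hy : orderOf y = ℓ) :
    ∃ P : Sylow ℓ G, y ∈ (P : Subgroup G) ∧ Nat.card (P : Subgroup G) = ℓ ∧ (P : Subgroup G) = zpowers y ∧
      ∃ n : ℕ, n % ℓ = 1 ∧ n * Nat.card (normalizer ((P : Subgroup G) : Set G)) = Nat.card G ∧
      Nat.card (centralizer ((P : Subgroup G) : Set G)) ∣ Nat.card (normalizer ((P : Subgroup G) : Set G)) ∧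
      Nat.card (normalizer ((P : Subgroup G) : Set G)) ∣
        Nat.card (centralizer ((P : Subgroup G) : Set G)) * (ℓ - 1) := by
  classical
  have hc : Nat.card (zpowers y) = ℓ := by rw [Nat.card_zpowers, hy]
  have hp : IsPGroup ℓ (zpowers y) := IsPGroup.of_card (n := 1) (by rw [hc, pow_one])
  obtain ⟨P, hP⟩ := hp.exists_le_sylow
  obtain ⟨j, hj⟩ := P.isPGroup'.exists_card_eq
  have hPG : Nat.card (P : Subgroup G) ∣ ℓ * m := hG ▸ card_subgroup_dvd_card _
  have hj1 : j ≤ 1 := by
    by_contra hj1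
    have : ℓ * ℓ ∣ ℓ * m := by
      refine dvd_trans ?_ hPG
      rw [hj, ← sq]
      exact pow_dvd_pow _ (by omega)
    exact hm (Nat.dvd_of_mul_dvd_mul_left hℓ.out.pos this)
  have hPeq : (P : Subgroup G) = zpowers y := by
    refine (eq_of_le_of_card_ge hP ?_).symm
    rw [hj, hc]
    exact (Nat.pow_le_pow_right hℓ.out.pos hj1).trans (pow_one ℓ).le
  have hcardP : Nat.card (P : Subgroup G) = ℓ := by rw [hPeq, hc]
  haveI : IsCyclic (P : Subgroup G) := isCyclic_of_prime_card hcardP
  refine ⟨P, hP (mem_zpowers y), hcardP, hPeq, Nat.card (Sylow ℓ G), ?_, ?_, ?_, ?_⟩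
  · have := card_sylow_modEq_one ℓ G
    rw [Nat.ModEq, Nat.mod_eq_of_lt hℓ.out.one_lt] at this
    exact this
  · rw [Sylow.card_eq_index_normalizer P, mul_comm]
    exact card_mul_index (normalizer ((P : Subgroup G) : Set G))
  · exact card_dvd_of_le (centralizer_le_normalizer _)
  · have hk : Nat.card ((P : Subgroup G).normalizerMonoidHom).ker =
        Nat.card (centralizer ((P : Subgroup G) : Set G)) := by
      rw [normalizerMonoidHom_ker]
      exact Nat.card_congr (subgroupOfEquivOfLe (centralizer_le_normalizer _)).toEquiv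
    have h2 := ((P : Subgroup G).normalizerMonoidHom).ker.card_mul_index
    rw [index_ker, hk] at h2
    rw [← h2]
    refine Nat.mul_dvd_mul_left _ ?_
    have h3 := card_subgroup_dvd_card ((P : Subgroup G).normalizerMonoidHom).range
    rwa [IsCyclic.card_mulAut, hcardP, Nat.totient_prime hℓ.out] at h3

variable {F : Type u} [Field F] [Fintype F] {q : ℕ} (hF : Fintype.card F = q ^ 2)

local notation "V" => (Fin 3 → F)

include hF in
/-- Every point stabiliser in the subgroup has the same order. -/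
theorem card_point_stab (H : Subgroup (S 3 F q)) (hidx : H.index ≤ q ^ 3) {e f y : Fin 3 → F}
    (h : Frame q e f y) {t : ℕ} (hG : Good H e t) {L : Line F} (hL : L ∈ pts q) :
    Nat.card ↥(H ⊓ stabilizer (S 3 F q) L) = Nat.card ↥(H ⊓ Fix q e) * t := by
  obtain ⟨g, z, h'⟩ := exists_frame hF (valid_rep hF hL)
  have h1 := card_orbit_mul_stab H L
  have h2 := orbit_eq hF H hidx h'
  rw [ln_rep] at h2
  rw [h2, Set.ncard_coe_finset, card_pts hF h', hG.cardH] at h1
  exact Nat.eq_of_mul_eq_mul_left (by omega) h1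

open _root_.Classical in
include hF in
/-- The isotropic points fixed by an involution. -/
theorem inv_fixed_card (hodd : Odd q) {x : S 3 F q} (hx : x ≠ 1) (hx2 : x * x = 1) :
    ((pts q : Finset (Line F)).filter fun L => x • L = L).card = q + 1 := by
  obtain ⟨u, rfl⟩ := SUThree.exists_inv hF hodd hx hx2
  obtain ⟨v, g, h⟩ := exists_frame_unit hF (w := (u : V)) u.2
  rw [← card_lw_iso hF h]
  congr 1
  ext L
  simp only [Finset.mem_filter, mem_pts, mem_lw]
  have key : ∀ z : V, mat (SUThree.involu hF u) *ᵥ z = (2 * hm q z (u : V)) • (u : V) - z :=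
    SUThree.inv_apply hF u
  constructor
  · rintro ⟨hi, hfix⟩
    refine ⟨?_, hi⟩
    obtain ⟨a, -, ha⟩ := (fix_line_iff _ L).1 hfix
    rw [key] at ha
    have h2 : (2 * hm q L.rep (u : V)) • (u : V) = (a + 1) • L.rep := by
      linear_combination (norm := module) ha
    have h3 := congrArg (fun z => hm q z z) h2
    simp only [hm_smul_left', hm_smul_right, show hm q L.rep L.rep = 0 from hi, h.N, mul_zero,
      mul_one] at h3
    have h2' : (2 : F) ≠ 0 := SUThree.two_ne_zero' hF hodd
    have h4 : 2 * hm q L.rep (u : V) = 0 := by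
      rcases mul_eq_zero.1 h3 with h4 | h4 <;>
        first
          | exact h4
          | exact (pow_eq_zero_iff (n := q) (by have := Herm.two_le_q hF; omega)).1 h4
    exact (mul_eq_zero.1 h4).resolve_left h2'
  · rintro ⟨hp, hi⟩
    refine ⟨hi, (fix_line_iff _ L).2 ⟨-1, neg_ne_zero.2 one_ne_zero, ?_⟩⟩
    rw [key, show hm q L.rep (u : V) = 0 from hp, mul_zero, zero_smul, zero_sub, neg_one_smul]

end Cfsg.Agent.Lib.MinIndexU3
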