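import Cfsg.Agent.Lib.MinIndexU3.CaseAParams
import Cfsg.Agent.Lib.MinIndexU3.CaseACount
import Cfsg.Agent.Lib.MinIndexU3.EndTools

/-!
Small index, no transvection: contradiction.
-/

set_option autoImplicit false

namespace Cfsg.Agent.Lib.MinIndexU3

open Matrix MulAction Cfsg.Agent.Lib.AutPSU Cfsg.Agent.Lib.Classical

universe u

variable {F : Type u} [Field F] [Fintype F] {q : ℕ} (hF : Fintype.card F = q ^ 2)

local notation "V" => (Fin 3 → F)

variable (H : Subgroup (S 3 F q)) (hidx : H.index ≤ q ^ 3)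
variable {e f y : Fin 3 → F} (h : Frame q e f y) {t : ℕ} (hG : Good H e t)
include hF hidx h hG

theorem no_three (hq : q = 3) (hr : Nat.card ↥(H ⊓ Fix q e) = 1) (ht : t = 8) : False := by
  classical
  haveI : Fact (Nat.Prime 7) := ⟨by norm_num⟩
  haveI : Fact (Nat.Prime 2) := ⟨Nat.prime_two⟩
  have hH : Nat.card H = 7 * 32 := by rw [hG.cardH, hr, ht, hq]; norm_num
  obtain ⟨y0, hy⟩ := exists_prime_orderOf_dvd_card' (G := H) 7 (by rw [hH]; exact dvd_mul_right _ _)
  have nofix : ∀ L ∈ (pts q : Finset (Line F)), (y0 : S 3 F q) • L ≠ L := by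
    intro L hL hfix
    have h1 := card_point_stab hF H hidx h hG hL
    have h2 := orderOf_dvd_natCard (⟨y0, y0.2, hfix⟩ : ↥(H ⊓ stabilizer (S 3 F q) L))
    rw [← Subgroup.orderOf_coe, Subgroup.orderOf_coe y0, hy, h1, hr, ht] at h2
    omega
  obtain ⟨P, hyP, hPc, hPz, n, hn1, hnN, hCN, hNC⟩ := sylow_prime_facts hH (by norm_num) hy
  set N := Nat.card (Subgroup.normalizer ((P : Subgroup H) : Set H))
  set C := Nat.card (Subgroup.centralizer ((P : Subgroup H) : Set H))
  have hC2 : ¬2 ∣ C := by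
    intro h2
    obtain ⟨x, hx⟩ := exists_prime_orderOf_dvd_card' 2 h2
    have hcomm : y0 * (x : H) = (x : H) * y0 := Subgroup.mem_centralizer_iff.1 x.2 y0 hyP
    have hx1 : ((x : H) : S 3 F q) ≠ 1 := fun h0 => by
      rw [show x = 1 from Subtype.ext (Subtype.ext h0), orderOf_one] at hx
      omega
    have hx2 : ((x : H) : S 3 F q) * (x : H) = 1 := by
      have h1 : x * x = 1 := by rw [← sq, ← hx, pow_orderOf_eq_one]
      exact congrArg (fun z : ↥(Subgroup.centralizer ((P : Subgroup H) : Set H)) =>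
        ((z : H) : S 3 F q)) h1
    have hcard := inv_fixed_card hF (hq ▸ ⟨1, by norm_num⟩) hx1 hx2
    obtain ⟨L, hL, hfix⟩ := exists_fixed_of_prime (p := 7) (g := (y0 : S 3 F q))
      (by rw [← Subgroup.coe_pow, ← hy, pow_orderOf_eq_one, Subgroup.coe_one])
      ((pts q : Finset (Line F)).filter fun L => ((x : H) : S 3 F q) • L = L) (fun L hL => by
        rw [Finset.mem_filter, mem_pts] at hL ⊢
        refine ⟨(iso_smul hF _ L).2 hL.1, ?_⟩
        rw [← mul_smul, ← Subgroup.coe_mul, ← hcomm, Subgroup.coe_mul, mul_smul, hL.2])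
      (by rw [hcard, hq]; norm_num)
    exact nofix L (Finset.mem_filter.1 hL).1 hfix
  rw [hH] at hnN
  have hn : n ∣ 224 := ⟨N, hnN.symm⟩
  have hn7 : n ∣ 32 := by
    have : Nat.Coprime n 7 := (Nat.Prime.coprime_iff_not_dvd (by norm_num : Nat.Prime 7)).2
      (by omega) |>.symm
    exact this.dvd_of_dvd_mul_left hn
  have hN4 : 4 ∣ N := by
    have := Nat.le_of_dvd (by norm_num) hn7
    interval_cases n <;> omega
  obtain ⟨i, hi⟩ := hNC
  obtain ⟨j, hj⟩ := hN4
  have hodd : Odd C := Nat.not_even_iff_odd.1 fun he => hC2 he.two_dvd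
  obtain ⟨c, hc⟩ := hodd
  have : C * 6 = 4 * (j * i) := by
    show C * (7 - 1) = _
    rw [hi, hj]; ring
  omega

theorem no_eleven (hZ : Subgroup.center (S 3 F q) ≤ H) (hq : q = 11)
    (hr : Nat.card ↥(H ⊓ Fix q e) = 11) (ht : t = 30) : False := by
  classical
  haveI : Fact (Nat.Prime 37) := ⟨by norm_num⟩
  haveI : Fact (Nat.Prime 11) := ⟨by norm_num⟩
  haveI : Fact (Nat.Prime 2) := ⟨Nat.prime_two⟩
  haveI : Fact (Nat.Prime 3) := ⟨Nat.prime_three⟩
  have hH : Nat.card H = 37 * 11880 := by rw [hG.cardH, hr, ht, hq]; norm_num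
  have hpts : (pts q : Finset (Line F)).card = 1332 := by rw [card_pts hF h, hq]; norm_num
  obtain ⟨y0, hy⟩ := exists_prime_orderOf_dvd_card' (G := H) 37 (by rw [hH]; exact dvd_mul_right _ _)
  have hy37 : (y0 : S 3 F q) ^ 37 = 1 := by
    rw [← Subgroup.coe_pow, ← hy, pow_orderOf_eq_one, Subgroup.coe_one]
  have nofix : ∀ L ∈ (pts q : Finset (Line F)), (y0 : S 3 F q) • L ≠ L := by
    intro L hL hfix
    have h1 := card_point_stab hF H hidx h hG hL
    have h2 := orderOf_dvd_natCard (⟨y0, y0.2, hfix⟩ : ↥(H ⊓ stabilizer (S 3 F q) L))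
    rw [← Subgroup.orderOf_coe, Subgroup.orderOf_coe y0, hy, h1, hr, ht] at h2
    omega
  obtain ⟨P, hyP, hPc, hPz, n, hn1, hnN, hCN, hNC⟩ := sylow_prime_facts hH (by norm_num) hy
  set N := Nat.card (Subgroup.normalizer ((P : Subgroup H) : Set H)) with hN
  set C := Nat.card (Subgroup.centralizer ((P : Subgroup H) : Set H)) with hC
  have hC2 : ¬2 ∣ C := by
    intro h2
    obtain ⟨x, hx⟩ := exists_prime_orderOf_dvd_card' 2 h2
    have hcomm : y0 * (x : H) = (x : H) * y0 := Subgroup.mem_centralizer_iff.1 x.2 y0 hyP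
    have hx1 : ((x : H) : S 3 F q) ≠ 1 := fun h0 => by
      rw [show x = 1 from Subtype.ext (Subtype.ext h0), orderOf_one] at hx
      omega
    have hx2 : ((x : H) : S 3 F q) * (x : H) = 1 := by
      have h1 : x * x = 1 := by rw [← sq, ← hx, pow_orderOf_eq_one]
      exact congrArg (fun z : ↥(Subgroup.centralizer ((P : Subgroup H) : Set H)) =>
        ((z : H) : S 3 F q)) h1
    have hcard := inv_fixed_card hF (hq ▸ ⟨5, by norm_num⟩) hx1 hx2
    obtain ⟨L, hL, hfix⟩ := exists_fixed_of_prime (p := 37) hy37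
      ((pts q : Finset (Line F)).filter fun L => ((x : H) : S 3 F q) • L = L) (fun L hL => by
        rw [Finset.mem_filter, mem_pts] at hL ⊢
        refine ⟨(iso_smul hF _ L).2 hL.1, ?_⟩
        rw [← mul_smul, ← Subgroup.coe_mul, ← hcomm, Subgroup.coe_mul, mul_smul, hL.2])
      (by rw [hcard, hq]; norm_num)
    exact nofix L (Finset.mem_filter.1 hL).1 hfix
  have fix11 : ∀ (x : S 3 F q), x ∈ H → x ^ 11 = 1 → ∀ L ∈ (pts q : Finset (Line F)), x • L = L →
      x ∈ Fix q L.rep := by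
    intro x hxH hx L hL hfix
    obtain ⟨a, ha0, ha⟩ := (fix_line_iff x L).1 hfix
    have hpow : ∀ k : ℕ, mat (x ^ k) *ᵥ L.rep = a ^ k • L.rep := fun k => by
      induction k with
      | zero => simp [mat_one]
      | succ k ih => rw [pow_succ, mat_mul, ← mulVec_mulVec, ha, mulVec_smul, ih, smul_smul,
          ← pow_succ']
    have h11 : a ^ 11 = 1 := by
      have h1 := hpow 11
      rw [hx, mat_one, one_mulVec] at h1
      exact (smul_left_injective F L.rep_nonzero ((one_smul F L.rep).trans h1)).symm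
    have h30 : a ^ 30 = 1 := ht ▸ (hG.eig a).1 (eig_transfer hF H hidx h (valid_rep hF hL) hxH ha)
    have h1 : a ^ Nat.gcd 11 30 = 1 := pow_gcd_eq_one.2 ⟨h11, h30⟩
    norm_num at h1
    show mat x *ᵥ L.rep = L.rep
    rw [ha, h1, one_smul]
  have hC11 : ¬11 ∣ C := by
    intro h2
    obtain ⟨x, hx⟩ := exists_prime_orderOf_dvd_card' 11 h2
    have hcomm : y0 * (x : H) = (x : H) * y0 := Subgroup.mem_centralizer_iff.1 x.2 y0 hyP
    have hxp : ((x : H) : S 3 F q) ^ 11 = 1 := by
      have h1 : x ^ 11 = 1 := by rw [← hx, pow_orderOf_eq_one]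
      exact congrArg (fun z : ↥(Subgroup.centralizer ((P : Subgroup H) : Set H)) =>
        ((z : H) : S 3 F q)) h1
    obtain ⟨L, hL, hfix⟩ := exists_fixed_of_prime (p := 11) hxp (pts q : Finset (Line F))
      (fun L hL => mem_pts.2 ((iso_smul hF _ L).2 (mem_pts.1 hL))) (by rw [hpts]; norm_num)
    have hx1 : ((x : H) : S 3 F q) ≠ 1 := fun h0 => by
      rw [show x = 1 from Subtype.ext (Subtype.ext h0), orderOf_one] at hx
      omega
    refine nofix L hL ?_
    have h1 := fix_unique hF (valid_rep hF hL) (fix11 _ (x : H).2 hxp L hL hfix) hx1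
      (L := (y0 : S 3 F q) • L) ((iso_smul hF _ L).2 (mem_pts.1 hL))
      (by rw [← mul_smul, ← Subgroup.coe_mul, ← hcomm, Subgroup.coe_mul, mul_smul, hfix])
    rwa [ln_rep] at h1
  have h37C : 37 ∣ C := by
    rw [← hPc]
    exact Subgroup.card_dvd_of_le (Subgroup.le_centralizer (P : Subgroup H) (h := by
      rw [hPz]; exact inferInstance))
  have h3C : 3 ∣ C := by
    obtain ⟨w, hw⟩ := exists_prime_orderOf_dvd_card' (G := Subgroup.center (S 3 F q)) 3
      (by rw [Herm.card_center_SU hF (by omega), hq]; norm_num)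
    let wH : H := ⟨w, hZ w.2⟩
    have hwH : wH ∈ Subgroup.centralizer ((P : Subgroup H) : Set H) :=
      Subgroup.mem_centralizer_iff.2 fun g _ => Subtype.ext
        (Subgroup.mem_center_iff.1 w.2 (g : S 3 F q))
    have h1 := orderOf_dvd_natCard (⟨wH, hwH⟩ : ↥(Subgroup.centralizer ((P : Subgroup H) : Set H)))
    rwa [← Subgroup.orderOf_coe, ← Subgroup.orderOf_coe, show ((wH : H) : S 3 F q) = w from rfl,
      Subgroup.orderOf_coe, hw] at h1
  rw [hH] at hnN
  have hN439560 : N ∣ 439560 := ⟨n, by rw [mul_comm]; exact hnN.symm⟩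
  have hC4995 : C ∣ 4995 := by
    have hcop : Nat.Coprime C (2 ^ 3 * 11) := Nat.Coprime.mul_right
      (Nat.Coprime.pow_right 3 ((Nat.prime_two.coprime_iff_not_dvd.2 hC2).symm))
      (((Nat.Prime.coprime_iff_not_dvd (by norm_num : Nat.Prime 11)).2 hC11).symm)
    exact hcop.dvd_of_dvd_mul_left (show C ∣ 2 ^ 3 * 11 * 4995 from hCN.trans hN439560)
  have hN19980 : N ∣ 19980 := by
    have := Nat.dvd_gcd (hNC.trans (Nat.mul_dvd_mul_right hC4995 _)) hN439560
    norm_num at this
    exact this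
  have h111 : 111 ∣ N := (Nat.Coprime.mul_dvd_of_dvd_of_dvd (by norm_num : Nat.Coprime 3 37)
    h3C h37C).trans hCN
  obtain ⟨b, hb⟩ := hN19980
  have hb180 : b ∣ 180 := by
    obtain ⟨j, hj⟩ := h111
    refine ⟨j, ?_⟩
    rw [hj] at hb
    nlinarith
  have hNpos : 0 < N := Nat.card_pos
  have hnb : n = 22 * b := by
    refine Nat.eq_of_mul_eq_mul_right hNpos ?_
    rw [hnN, show 22 * b * N = 22 * (N * b) by ring, ← hb]
  have hb' : b ≤ 180 := Nat.le_of_dvd (by norm_num) hb180
  have hb5 : b = 32 ∨ b = 69 ∨ b = 106 ∨ b = 143 ∨ b = 180 := by omega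
  have hN111 : N = 111 := by
    rcases hb5 with rfl | rfl | rfl | rfl | rfl <;> first | omega | norm_num at hb180
  have hCeq : C = 111 := Nat.dvd_antisymm (hN111 ▸ hCN)
    (Nat.Coprime.mul_dvd_of_dvd_of_dvd (by norm_num : Nat.Coprime 3 37) h3C h37C)
  have hle : Subgroup.normalizer ((P : Subgroup H) : Set H) ≤
      Subgroup.centralizer ((P : Subgroup H) : Set H) :=
    (Subgroup.eq_of_le_of_card_ge (Subgroup.centralizer_le_normalizer _)
      (by rw [← hN, ← hC, hN111, hCeq])).ge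
  set K := (MonoidHom.transferSylow P hle).ker
  have hK : Nat.card K = 11880 := by
    have h1 := (MonoidHom.ker_transferSylow_isComplement' P hle).card_mul
    rw [hPc, hH, mul_comm 37] at h1
    exact Nat.eq_of_mul_eq_mul_right (by norm_num) h1
  let K' : Subgroup (S 3 F q) := K.map H.subtype
  have hK' : Nat.card K' = 11880 := by
    rw [← hK]
    exact (Nat.card_congr (K.equivMapOfInjective _ H.subtype_injective).toEquiv).symm
  have hK'H : K' ≤ H := Subgroup.map_subtype_le K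
  have hR : ∀ L ∈ (pts q : Finset (Line F)), Nat.card ↥(H ⊓ Fix q L.rep) = 11 := fun L hL => by
    rw [card_Fix_inf hF H hidx (valid_rep hF hL) h.P.valid_e, hr]
  have htrans := transitive_of_semiregular (p := 11) K' ↑(pts q : Finset (Line F))
    (fun g _ L hL => mem_pts.2 ((iso_smul hF g L).2 (mem_pts.1 hL))) (fun L hL => by
      refine ⟨H ⊓ Fix q L.rep, fun g hg => ?_, IsPGroup.of_card (n := 1) (by rw [hR L hL, pow_one]),
        fun g hg => (fix_line_iff g L).2 ⟨1, one_ne_zero, by rw [one_smul]; exact hg.2⟩,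
        fun M hM hfix => ?_⟩
      · refine ⟨⟨g, hg.1⟩, ?_, rfl⟩
        have hg11 : (⟨g, hg.1⟩ : H) ^ 11 = 1 := by
          have h1 := pow_card_eq_one' (x := (⟨g, hg⟩ : ↥(H ⊓ Fix q L.rep)))
          rw [hR L hL] at h1
          exact Subtype.ext (congrArg (fun z : ↥(H ⊓ Fix q L.rep) => (z : S 3 F q)) h1)
        show MonoidHom.transferSylow P hle ⟨g, hg.1⟩ = 1
        have h2 : (MonoidHom.transferSylow P hle ⟨g, hg.1⟩) ^ 11 = 1 := by
          rw [← map_pow, hg11, map_one]
        have h3 : (MonoidHom.transferSylow P hle ⟨g, hg.1⟩) ^ 37 = 1 := by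
          exact (congrArg (fun k => (MonoidHom.transferSylow P hle ⟨g, hg.1⟩) ^ k) hPc).symm.trans
            pow_card_eq_one'
        have h4 := pow_gcd_eq_one.2 ⟨h2, h3⟩
        norm_num at h4
        exact h4
      · have hne : H ⊓ Fix q L.rep ≠ ⊥ := fun h0 => by
          have := hR L hL
          rw [h0, Subgroup.card_bot] at this
          omega
        obtain ⟨⟨g, hg⟩, hg1'⟩ := Subgroup.ne_bot_iff_exists_ne_one.1 hne
        rw [fix_unique hF (valid_rep hF hL) hg.2 (fun h0 => hg1' (Subtype.ext h0))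
          (mem_pts.1 hM) (hfix g hg), ln_rep])
  have heq : orbit K' (ln h.P.e_ne) = ↑(pts q : Finset (Line F)) := by
    ext L
    constructor
    · rintro ⟨g, rfl⟩
      exact mem_pts.2 ((iso_smul hF (g : S 3 F q) _).2 ((iso_ln hF _).2 h.P.ee))
    · intro hL
      obtain ⟨g, hg, hgL⟩ := htrans _ (ln_mem_pts hF h.P.valid_e) L hL
      exact ⟨⟨g, hg⟩, hgL⟩
  have h1 := card_orbit_mul_stab K' (ln h.P.e_ne)
  rw [heq, Set.ncard_coe_finset, hpts, hK'] at h1
  omega

theorem caseA (hZ : Subgroup.center (S 3 F q) ≤ H) (hq : 3 ≤ q) (h5 : q ≠ 5)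
    (hA : H ⊓ Tsub q e = ⊥) : False := by
  obtain ⟨f', w, z, l, ν, h', hz, hze, hzf, hzw, hl, hνl, hev⟩ :=
    exists_z hF H hidx h hG hA hq
  have hb := caseA_bound hF H hidx h' hG hA hz hze hzf hzw hνl
  have hsq : q ^ 2 - 1 = (q + 1) * (q - 1) := by rw [← Nat.sq_sub_sq, one_pow]
  rcases params hF H hidx h hG hA with ⟨hr, ht⟩ | ⟨hr, hodd, ht3, hlow⟩
  · have hgcd : Nat.gcd t (q + 1) = q + 1 := by
      rw [ht, hsq]; exact Nat.gcd_eq_right (dvd_mul_right _ _)
    rw [hgcd, ht, hsq] at hb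
    have hpos : 0 < (q + 1) * (q - 1) := Nat.mul_pos (by omega) (by omega)
    rcases hb with hb | hb
    · have h1 : q + 1 ≤ 4 := by nlinarith
      have h3 : q = 3 := by omega
      exact no_three hF H hidx h hG h3 hr (by rw [ht, h3]; norm_num)
    · have h1 : q + 1 = 6 := by nlinarith
      omega
  · obtain ⟨-, hteven⟩ := hev (by omega)
    obtain ⟨j, hj⟩ := ht3
    have hj1 : 1 ≤ j := Nat.pos_of_ne_zero fun h0 => by rw [h0, mul_zero] at hj; omega
    have hj2 : j ≤ 2 := by nlinarith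
    have hk6 : Nat.gcd t (q + 1) ≤ 6 := by
      refine Nat.le_of_dvd (by norm_num) ?_
      have h1 : Nat.gcd t (q + 1) ∣ 3 * (q - 1) := (Nat.gcd_dvd_left _ _).trans ⟨j, hj⟩
      have h2 := (Nat.gcd_dvd_right t (q + 1)).mul_left 3
      have h3 := Nat.dvd_sub h2 h1
      rwa [show 3 * (q + 1) - 3 * (q - 1) = 6 by omega] at h3
    have h24 : q + 1 ≤ 24 := by
      have h1 : (q + 1) * t ≤ 36 * (q - 1) := by
        rcases hb with hb | hb <;> nlinarith
      have h2 : 3 * (q - 1) ≤ 2 * t := by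
        rw [hj, mul_comm 2 t]; exact Nat.mul_le_mul_left t hj2
      have h3 : (q + 1) * (3 * (q - 1)) ≤ 72 * (q - 1) :=
        (Nat.mul_le_mul_left _ h2).trans (by linarith)
      have h4 : (q + 1) * 3 * (q - 1) ≤ 72 * (q - 1) := by rwa [mul_assoc]
      have := Nat.le_of_mul_le_mul_right h4 (by omega)
      omega
    have hdvd := hG.dvd
    have hkey : q = 11 ∧ t = 30 := by
      obtain ⟨o, rfl⟩ := hodd
      obtain ⟨ev, hev'⟩ := hteven
      have ho : o ≤ 11 := by omega
      have hto : t = 6 * o ∨ t = 3 * o := by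
        rcases (by omega : j = 1 ∨ j = 2) with rfl | rfl <;> omega
      rcases hto with rfl | rfl
      all_goals
        interval_cases o
      all_goals first
        | omega
        | exact absurd hdvd (by norm_num)
        | exact absurd hb (by norm_num)
    exact no_eleven hF H hidx h hG hZ hkey.1 (hr.trans hkey.1) hkey.2

end Cfsg.Agent.Lib.MinIndexU3
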