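import Cfsg.Agent.Lib.MinIndexU3.Util
import Cfsg.Agent.Lib.Classical.SUThreeInv

/-!
Small index, no transvection: parameters and a homology.
-/

set_option autoImplicit false

namespace Cfsg.Agent.Lib.MinIndexU3

open Matrix MulAction Cfsg.Agent.Lib.AutPSU Cfsg.Agent.Lib.Classical

universe u

variable {F : Type u} [Field F] [Fintype F] {q : ℕ} (hF : Fintype.card F = q ^ 2)

local notation "V" => (Fin 3 → F)

variable (H : Subgroup (S 3 F q)) (hidx : H.index ≤ q ^ 3)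
variable {e f y : Fin 3 → F} (h : Frame q e f y) {t : ℕ} (hG : Good H e t)
variable (hA : H ⊓ Tsub q e = ⊥)
include hF h hA

omit hidx hG in
theorem eq_one_of_alpha {s : S 3 F q} (hs : s ∈ H) (hs' : s ∈ Fix q e)
    (ha : hm q (mat s *ᵥ f) y = 0) : s = 1 := by
  have : s ∈ H ⊓ Tsub q e := ⟨hs, (mem_Tsub_iff hF h).2 ⟨hs', ha⟩⟩
  rwa [hA, Subgroup.mem_bot] at this

theorem alpha_inj {s s' : S 3 F q} (hs : s ∈ H ⊓ Fix q e) (hs' : s' ∈ H ⊓ Fix q e)
    (ha : hm q (mat s *ᵥ f) y = hm q (mat s' *ᵥ f) y) : s = s' := by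
  have h1 := alpha_mul hF h hs.2 (mul_mem (inv_mem hs.2) hs'.2 : s⁻¹ * s' ∈ Fix q e)
  rw [mul_inv_cancel_left, ← ha, left_eq_add] at h1
  exact inv_mul_eq_one.1 (eq_one_of_alpha hF H h hA (mul_mem (inv_mem hs.1) hs'.1)
    (mul_mem (inv_mem hs.2) hs'.2) h1)

theorem abelian {u v : S 3 F q} (hu : u ∈ H ⊓ Fix q e) (hv : v ∈ H ⊓ Fix q e) :
    hm q (mat u *ᵥ f) y * hm q (mat v *ᵥ f) y ^ q =
      hm q (mat v *ᵥ f) y * hm q (mat u *ᵥ f) y ^ q := by
  have hc : u * v = v * u := alpha_inj hF H h hA (mul_mem hu hv) (mul_mem hv hu) (by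
    rw [alpha_mul hF h hu.2 hv.2, alpha_mul hF h hv.2 hu.2, add_comm])
  obtain ⟨a, c, hp, rfl⟩ := fix_e_eq hF h hu.2
  obtain ⟨b, d, hp', rfl⟩ := fix_e_eq hF h hv.2
  rw [Uc_f hF h hp, Uc_f hF h hp', (h.pv_coord hF a c).2.2, (h.pv_coord hF b d).2.2]
  have h1 := congrArg (fun s : S 3 F q => hm q (mat s *ᵥ f) f) hc
  simp only [mat_mul, ← mulVec_mulVec, Uc_f hF h hp, Uc_f hF h hp', pv, mulVec_add, mulVec_smul,
    Uc_y hF h hp, Uc_y hF h hp', Uc_e hF h hp, Uc_e hF h hp'] at h1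
  simp [pv, hm_add_left, hm_sub_left, hm_smul_left', h.P.ff, h.P.ef, h.W.2] at h1
  linear_combination h1

include hidx hG

omit hidx in
theorem r_le : Nat.card ↥(H ⊓ Fix q e) ≤ q := by
  have hq := Herm.two_le_q hF
  by_cases hall : ∀ u ∈ H ⊓ Fix q e, hm q (mat u *ᵥ f) y = 0
  · have : H ⊓ Fix q e = ⊥ := (Subgroup.eq_bot_iff_forall _).2 fun u hu =>
      eq_one_of_alpha hF H h hA hu.1 hu.2 (hall u hu)
    rw [this, Subgroup.card_bot]
    omega
  push Not at hall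
  obtain ⟨u₀, hu₀, ha₀⟩ := hall
  refine (Nat.card_le_card_of_injective (fun s : ↥(H ⊓ Fix q e) =>
    (⟨hm q (mat (s : S 3 F q) *ᵥ f) y / hm q (mat u₀ *ᵥ f) y, ?_⟩ : {c : F // c ^ q = c}))
    fun s s' hh => ?_).trans (Herm.card_fixed hF).le
  · rw [div_pow, div_eq_div_iff (pow_ne_zero _ ha₀) ha₀]
    linear_combination -(abelian hF H h hA s.2 hu₀)
  · exact Subtype.ext (alpha_inj hF H h hA s.2 s'.2
      ((div_left_inj' ha₀).1 (congrArg Subtype.val hh)))

theorem params : (Nat.card ↥(H ⊓ Fix q e) = 1 ∧ t = q ^ 2 - 1) ∨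
    (Nat.card ↥(H ⊓ Fix q e) = q ∧ Odd q ∧ t ∣ 3 * (q - 1) ∧ q - 1 < t) := by
  have hq := Herm.two_le_q hF
  have hr := r_le hF H h hG hA
  have hle := hG.le
  set r := Nat.card ↥(H ⊓ Fix q e)
  have hsq : q ^ 2 - 1 = (q + 1) * (q - 1) := by rw [← Nat.sq_sub_sq, one_pow]
  have h4 : 4 ≤ q ^ 2 := by nlinarith
  by_cases hr1 : r = 1
  · left
    refine ⟨hr1, Nat.dvd_antisymm hG.dvd ?_⟩
    rw [hr1, one_mul] at hle
    rw [Nat.le_antisymm (Nat.le_of_dvd (by omega) hG.dvd) hle]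
  right
  obtain ⟨⟨u, hu⟩, hu1'⟩ := Subgroup.ne_bot_iff_exists_ne_one.1
    (show H ⊓ Fix q e ≠ ⊥ from fun h0 => hr1 (by simp only [r]; rw [h0, Subgroup.card_bot]))
  have hu1 : u ≠ 1 := fun h0 => hu1' (Subtype.ext h0)
  have hau : hm q (mat u *ᵥ f) y ≠ 0 := fun h0 => hu1 (eq_one_of_alpha hF H h hA hu.1 hu.2 h0)
  have hodd : Odd q := by
    rw [← Nat.not_even_iff_odd]
    intro he
    have h2 := two_eq_zero hF he
    have hsq1 : u * u = 1 := alpha_inj hF H h hA (mul_mem hu hu) (one_mem _) (by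
      rw [alpha_mul hF h hu.2 hu.2, mat_one, one_mulVec, (h.swap hF).2]
      linear_combination hm q (mat u *ᵥ f) y * h2)
    obtain ⟨a, c, hp, rfl⟩ := fix_e_eq hF h hu.2
    rw [Uc_f hF h hp, (h.pv_coord hF a c).2.2] at hau
    have h1 := congrArg (fun s : S 3 F q => hm q (mat s *ᵥ f) f) hsq1
    simp only [mat_mul, ← mulVec_mulVec, Uc_f hF h hp, pv, mulVec_add, mulVec_smul, Uc_y hF h hp,
      Uc_e hF h hp, mat_one, one_mulVec] at h1
    simp [pv, hm_add_left, hm_sub_left, hm_smul_left', h.P.ff, h.P.ef, h.W.2] at h1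
    have : a * a ^ q = 0 := by linear_combination c * h2 - h1
    exact hau (pow_eq_zero_iff (n := q + 1) (by omega) |>.1 (by rw [pow_succ', this]))
  obtain ⟨a, ha⟩ := exists_order hF hG.dvd
  obtain ⟨s, hs, hse⟩ := (hG.eig a).2 (ha ▸ pow_orderOf_eq_one a)
  have ha0 : a ≠ 0 := fun h0 => mulVec_ne_zero s h.P.e_ne (by rw [hse, h0, zero_smul])
  have hconj : s * u * s⁻¹ ∈ H ⊓ Fix q e := by
    refine ⟨H.mul_mem (H.mul_mem hs hu.1) (H.inv_mem hs), ?_⟩
    show s * u * s⁻¹ ∈ Fix q e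
    rw [← Fix_smul ha0 e, ← hse]
    exact conj_mem_Fix s hu.2
  have hab := abelian hF H h hA hconj hu
  rw [alpha_conj hF h ha0 hse hu.2] at hab
  set μ := a ^ q * a ^ q * a⁻¹ with hμ
  set α := hm q (mat u *ᵥ f) y
  have hfix : μ ^ q = μ := by
    refine mul_right_cancel₀ (mul_ne_zero hau (pow_ne_zero q hau)) ?_
    rw [mul_pow] at hab
    linear_combination -hab
  have hcube : a ^ (3 * (q - 1)) = 1 := by
    have e1 : (a * a * a⁻¹ ^ q : F) = μ := by
      rw [← hfix, hμ, mul_pow, mul_pow, Herm.conj_conj hF]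
    have e2 : a ^ 3 = a ^ (3 * q) := by
      rw [mul_comm 3 q, pow_mul]
      rw [hμ, inv_pow] at e1
      field_simp at e1
      linear_combination e1
    have e3 : a ^ (3 * (q - 1)) * a ^ 3 = a ^ 3 := by
      rw [← pow_add, show 3 * (q - 1) + 3 = 3 * q by omega, ← e2]
    exact (mul_eq_right₀ (pow_ne_zero 3 ha0)).1 e3
  have ht3 : t ∣ 3 * (q - 1) := ha ▸ orderOf_dvd_of_pow_eq_one hcube
  have hlow : q - 1 < t := by
    by_contra hle'
    have := hle.trans (Nat.mul_le_mul hr (Nat.le_of_not_lt hle'))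
    rw [hsq] at this
    have := Nat.le_of_mul_le_mul_right this (by omega)
    omega
  refine ⟨?_, hodd, ht3, hlow⟩
  have h3 : 3 ∣ q + 1 := by
    by_contra h3
    have hd : t ∣ Nat.gcd (3 * (q - 1)) ((q + 1) * (q - 1)) := Nat.dvd_gcd ht3 (hsq ▸ hG.dvd)
    rw [Nat.gcd_mul_right, (Nat.prime_three.coprime_iff_not_dvd.2 h3).gcd_eq_one, one_mul] at hd
    have := Nat.le_of_dvd (by omega) hd
    omega
  obtain ⟨p, m, hp, hm0, hqp, -⟩ := prime_pow hF
  obtain ⟨k, hk, hk'⟩ := (Nat.dvd_prime_pow hp).1 (show r ∣ p ^ (m * 3) by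
    rw [pow_mul, ← hqp, ← card_fix hF h]; exact Subgroup.card_dvd_of_le inf_le_right)
  by_contra hne
  have hlt : r < q := lt_of_le_of_ne hr hne
  have hp5 : 5 ≤ p := by
    have h2 := hp.two_le
    by_contra h5
    interval_cases p
    · rw [hqp] at hodd
      exact Nat.not_even_iff_odd.2 hodd ((Nat.even_pow' hm0.ne').2 even_two)
    · have : 3 ∣ q := hqp ▸ dvd_pow_self 3 hm0.ne'
      omega
    · norm_num at hp
  rw [hk', hqp] at hlt
  have hkm := (Nat.pow_lt_pow_iff_right hp.one_lt).1 hlt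
  have h5r : 5 * r ≤ q := by
    rw [hk', hqp]
    exact (Nat.mul_le_mul_right _ hp5).trans
      (by rw [← pow_succ']; exact Nat.pow_le_pow_right hp.pos hkm)
  have h6 := Nat.mul_le_mul h5r (Nat.le_of_dvd (by omega) ht3)
  have h7 : 5 * (q ^ 2 - 1) ≤ 5 * (r * t) := Nat.mul_le_mul_left 5 hle
  rw [hsq] at h7
  rw [mul_assoc] at h6
  have h8 : 5 * (q + 1) * (q - 1) ≤ 3 * q * (q - 1) := by
    calc 5 * (q + 1) * (q - 1) = 5 * ((q + 1) * (q - 1)) := by ring
      _ ≤ q * (3 * (q - 1)) := h7.trans h6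
      _ = 3 * q * (q - 1) := by ring
  have := Nat.le_of_mul_le_mul_right h8 (by omega)
  omega

theorem exists_z (hq3 : 3 ≤ q) : ∃ (f' w : V) (z : S 3 F q) (l ν : F),
    Frame q e f' w ∧ z ∈ H ∧ mat z *ᵥ e = l • e ∧ mat z *ᵥ f' = l • f' ∧ mat z *ᵥ w = ν • w ∧
      l ^ (q + 1) = 1 ∧ ν ≠ l ∧ (Nat.card ↥(H ⊓ Fix q e) ≠ 1 → l = -1 ∧ Even t) := by
  have hq := Herm.two_le_q hF
  obtain ⟨z, l, hz, hze, hl, hl3, hzp, hev⟩ : ∃ (z : S 3 F q) (l : F), z ∈ H ∧
      mat z *ᵥ e = l • e ∧ l ^ (q + 1) = 1 ∧ l ^ 3 ≠ 1 ∧ z ^ (q + 1) = 1 ∧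
      (Nat.card ↥(H ⊓ Fix q e) ≠ 1 → l = -1 ∧ Even t) := by
    rcases params hF H hidx h hG hA with ⟨hr, ht⟩ | ⟨hr, hodd, -, -⟩
    · have hd : q + 1 ∣ q ^ 2 - 1 := ⟨q - 1, by rw [← Nat.sq_sub_sq, one_pow]⟩
      obtain ⟨l, hl⟩ := exists_order hF hd
      obtain ⟨z, hz, hze⟩ := (hG.eig l).2 (orderOf_dvd_iff_pow_eq_one.1 (by rw [hl, ht]; exact hd))
      have hl' : l ^ (q + 1) = 1 := hl ▸ pow_orderOf_eq_one l
      refine ⟨z, l, hz, hze, hl', fun h3 => ?_, ?_, fun hne => absurd hr hne⟩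
      · have := Nat.le_of_dvd (by omega) (hl ▸ orderOf_dvd_of_pow_eq_one h3)
        omega
      · have hmem : z ^ (q + 1) ∈ H ⊓ Fix q e := by
          refine ⟨pow_mem hz _, ?_⟩
          clear hr ht
          have hpow : ∀ n : ℕ, mat (z ^ n) *ᵥ e = l ^ n • e := fun n => by
            induction n with
            | zero => simp [mat_one]
            | succ n ih => rw [pow_succ, mat_mul, ← mulVec_mulVec, hze, mulVec_smul, ih, smul_smul,
                ← pow_succ']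
          show mat (z ^ (q + 1)) *ᵥ e = e
          rw [hpow, hl', one_smul]
        rwa [Subgroup.eq_bot_of_card_eq _ hr, Subgroup.mem_bot] at hmem
    · have h2 : (2 : F) ≠ 0 := SUThree.two_ne_zero' hF hodd
      have hev : Even (Nat.card H) := by
        rw [hG.cardH]
        exact (((hodd.pow (n := 3))).add_odd odd_one).mul_right _
      obtain ⟨x, hx⟩ := exists_prime_orderOf_dvd_card' (G := H) 2 hev.two_dvd
      have hx1 : (x : S 3 F q) ≠ 1 := fun h0 => by
        rw [show x = 1 from Subtype.ext h0, orderOf_one] at hx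
        omega
      have hx2 : (x : S 3 F q) * x = 1 := by
        rw [← Subgroup.coe_mul, ← sq, ← hx, pow_orderOf_eq_one, Subgroup.coe_one]
      obtain ⟨u, hu⟩ := SUThree.exists_inv hF hodd hx1 hx2
      obtain ⟨v, g, hfr⟩ := exists_frame_unit hF (w := (u : V)) u.2
      have hxv : mat (x : S 3 F q) *ᵥ v = (-1 : F) • v := by
        have h1 := SUThree.inv_apply hF u v
        rw [hu] at h1
        change mat (x : S 3 F q) *ᵥ v = (2 * hm q v (u : V)) • (u : V) - v at h1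
        rw [h1, (hfr.swap hF).1, mul_zero, zero_smul, zero_sub, neg_one_smul]
      obtain ⟨k, hk, hke⟩ := eig_transfer hF H hidx h hfr.P.valid_e x.2 hxv
      have hteven : Even t := by
        have h1 := (hG.eig (-1)).1 ⟨k, hk, hke⟩
        rcases Nat.even_or_odd t with he | ho
        · exact he
        · rw [ho.neg_one_pow] at h1
          exact absurd (by linear_combination -h1 : (2 : F) = 0) h2
      have hk2 : k * k ∈ H ⊓ Fix q e := by
        refine ⟨mul_mem hk hk, ?_⟩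
        show mat (k * k) *ᵥ e = e
        rw [mat_mul, ← mulVec_mulVec, hke, mulVec_smul, hke, smul_smul]
        simp
      have hpow : ∀ n : ℕ, mat (k ^ n) *ᵥ e = (-1 : F) ^ n • e := fun n => by
        induction n with
        | zero => simp [mat_one]
        | succ n ih => rw [pow_succ, mat_mul, ← mulVec_mulVec, hke, mulVec_smul, ih, smul_smul,
            ← pow_succ']
      refine ⟨k ^ q, -1, pow_mem hk q, by rw [hpow, hodd.neg_one_pow], ?_, ?_, ?_,
        fun _ => ⟨rfl, hteven⟩⟩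
      · exact Even.neg_one_pow (hodd.add_odd odd_one)
      · intro h3; exact h2 (by linear_combination -h3)
      · have h1 : (k * k) ^ q = 1 := by
          have := congrArg Subtype.val (pow_card_eq_one' (x := (⟨k * k, hk2⟩ : ↥(H ⊓ Fix q e))))
          rwa [hr] at this
        obtain ⟨j, hj⟩ := hodd.add_odd odd_one
        rw [← pow_mul, hj, ← two_mul, mul_left_comm, pow_mul, sq, pow_mul, h1, one_pow]
  have hl0 : l ≠ 0 := fun h0 => by rw [h0, zero_pow (by omega)] at hl; exact zero_ne_one hl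
  obtain ⟨⟨b, hzy⟩, -⟩ := stab_shape hF h hl0 hze
  set ν := l ^ q * l⁻¹ with hν
  have hνl : ν ≠ l := fun h0 => by
    apply hl3
    rw [pow_succ] at hl
    rw [hν] at h0
    field_simp at h0
    linear_combination hl - l * h0
  have hν0 : ν ≠ 0 := mul_ne_zero (pow_ne_zero _ hl0) (inv_ne_zero hl0)
  set w := y + (b / (ν - l)) • e
  have hsub : ν - l ≠ 0 := sub_ne_zero.2 hνl
  have hzw : mat z *ᵥ w = ν • w := by
    simp only [w, mulVec_add, mulVec_smul, hzy, hze]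
    match_scalars <;> field_simp <;> ring
  have hew : hm q e w = 0 := by
    simp [w, hm_add_right hF, hm_smul_right, (h.swap hF).1, h.P.ee]
  have hww : hm q w w = 1 := by
    simp [w, hm_add_left, hm_add_right hF, hm_smul_left', hm_smul_right, (h.swap hF).1, h.P.ee,
      h.W.1, h.N]
  obtain ⟨f', h'⟩ := exists_frame_perp hF h.P.valid_e hew hww
  obtain ⟨-, ⟨a, c, hzf⟩⟩ := stab_shape hF h' hl0 hze
  have ha : a = 0 := by
    have h1 := iso z f' w
    rw [hzf, hzw] at h1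
    simp [hm_add_left, hm_smul_left', hm_smul_right, (h'.swap hF).1, (h'.swap hF).2, h'.N] at h1
    exact h1.resolve_left fun hh => hν0 hh.1
  rw [ha, zero_smul, add_zero] at hzf
  have hlq : (l ^ q)⁻¹ = l := by
    rw [pow_succ] at hl
    exact (eq_inv_of_mul_eq_one_left (by linear_combination hl)).symm
  rw [hlq] at hzf
  have hc : c = 0 := by
    obtain ⟨-, h2⟩ := pow_triangular hze hzf (q + 1)
    rw [hzp, mat_one, one_mulVec, pow_succ _ (q + 1), hl, one_mul] at h2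
    have h3 := congrArg (fun v => hm q v f') h2
    simp [hm_add_left, hm_smul_left', h'.P.ef, h'.P.ff, cast_q hF] at h3
    exact h3.symm
  rw [hc, zero_smul, add_zero] at hzf
  exact ⟨f', w, z, l, ν, h', hz, hze, hzf, hzw, hl, hνl, hev⟩

end Cfsg.Agent.Lib.MinIndexU3
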