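import Cfsg.Agent.Lib.MinIndexU3.CaseBEven

/-!
Small index with transvections: contradiction.
-/

set_option autoImplicit false

namespace Cfsg.Agent.Lib.MinIndexU3

open Matrix MulAction Cfsg.Agent.Lib.AutPSU Cfsg.Agent.Lib.Classical

universe u

variable {F : Type u} [Field F] [Fintype F] {q : ℕ} (hF : Fintype.card F = q ^ 2)

local notation "V" => (Fin 3 → F)

variable (H : Subgroup (S 3 F q))

include hF in
theorem not_full (hq : 3 ≤ q) (hidx : H.index ≤ q ^ 3) (hH : H ≠ ⊤) {e f y : Fin 3 → F}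
    (h : Frame q e f y) (hfull : Nat.card ↥(H ⊓ Tsub q e) = q) : False := by
  refine hH ?_
  rw [eq_top_iff, ← UnitarySimple.generated hF (n := 3) le_rfl (by omega), Subgroup.closure_le]
  rintro x ⟨v, c, hv, hc, rfl⟩
  rcases eq_or_ne v 0 with rfl | hv0
  · have : T hF (0 : Fin 3 → F) c = 1 := vec_ext fun z => by
      rw [T_mulVec hF hv hc, smul_zero, add_zero, mat_one, one_mulVec]
    rw [this]; exact one_mem H
  obtain ⟨g, z, h'⟩ := exists_frame hF ⟨hv0, hv⟩
  have heq : H ⊓ Tsub q v = Tsub q v := Subgroup.eq_of_le_of_card_ge inf_le_right (by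
    rw [card_Tsub hF h', card_Tsub_inf hF H hidx ⟨hv0, hv⟩ h.P.valid_e, hfull])
  exact (heq.symm ▸ T_mem_Tsub hF h' hc : T hF v c ∈ H ⊓ Tsub q v).1

variable (hidx : H.index ≤ q ^ 3) (heven : Even q)
variable {e f y : Fin 3 → F} (h : Frame q e f y) (hs2 : Nat.card ↥(H ⊓ Tsub q e) = 2)
include hF hidx heven h hs2

omit hidx in
theorem sigma_unique {a b : F} (ha : Skew q a) (hb : Skew q b) (ha0 : a ≠ 0) (hb0 : b ≠ 0)
    (haH : T hF e a ∈ H) (hbH : T hF e b ∈ H) : a = b := by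
  by_contra hne
  have happ : ∀ c, Skew q c → mat (T hF e c) *ᵥ f = f + c • e := fun c hc => by
    rw [T_mulVec hF h.P.ee hc, h.P.fe, mul_one]
  have key : ∀ c c', Skew q c → Skew q c' → T hF e c = T hF e c' → c = c' := fun c c' hc hc' hh => by
    have h1 := congrArg (fun x : S 3 F q => mat x *ᵥ f) hh
    simp only [happ c hc, happ c' hc'] at h1
    exact smul_left_injective F h.P.e_ne (add_left_cancel h1)
  let g : Fin 3 → ↥(H ⊓ Tsub q e) := ![⟨T hF e a, haH, T_mem_Tsub hF h ha⟩,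
    ⟨T hF e b, hbH, T_mem_Tsub hF h hb⟩, 1]
  have hinj : Function.Injective g := by
    have h1 : (T hF e (0 : F) : S 3 F q) = 1 := T_zero hF h.P.ee
    intro i j hij
    have h2 := congrArg Subtype.val hij
    fin_cases i <;> fin_cases j <;> simp [g] at h2 ⊢
    · exact hne (key a b ha hb h2)
    · exact ha0 (key a 0 ha (Skew.zero hF) (h2.trans h1.symm))
    · exact hne (key b a hb ha h2).symm
    · exact hb0 (key b 0 hb (Skew.zero hF) (h2.trans h1.symm))
    · exact ha0 (key 0 a (Skew.zero hF) ha (h1.trans h2)).symm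
    · exact hb0 (key 0 b (Skew.zero hF) hb (h1.trans h2)).symm
  have := Nat.card_le_card_of_injective g hinj
  rw [hs2, Nat.card_fin] at this
  omega

omit hidx in
theorem exists_sigma : ∃ σ, Skew q σ ∧ σ ≠ 0 ∧ T hF e σ ∈ H := by
  have hne : H ⊓ Tsub q e ≠ ⊥ := fun h0 => by rw [h0, Subgroup.card_bot] at hs2; omega
  obtain ⟨⟨t, ht⟩, ht'⟩ := Subgroup.ne_bot_iff_exists_ne_one.1 hne
  obtain ⟨c, hc, rfl⟩ := Tsub_eq_T hF h ht.2
  exact ⟨c, hc, fun h0 => ht' (Subtype.ext (by rw [Subgroup.coe_one]; simp [h0, T_zero hF h.P.ee])),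
    ht.1⟩

open _root_.Classical in
omit hidx in
/-- The linear parts of root elements in the subgroup. -/
theorem r_bound (hq : 3 ≤ q) : ∃ A : Finset F, A.card ≤ 4 ∧ 0 ∈ A ∧
    (∀ u ∈ H ⊓ Fix q e, hm q (mat u *ᵥ f) y ∈ A) ∧
    (∀ a ∈ A, ∃ u ∈ H ⊓ Fix q e, hm q (mat u *ᵥ f) y = a) ∧
    Nat.card ↥(H ⊓ Fix q e) ≤ 2 * A.card := by
  obtain ⟨σ, hσ, hσ0, hσH⟩ := exists_sigma hF H heven h hs2
  have h2 := two_eq_zero hF heven
  set Rs := (Set.toFinite (H ⊓ Fix q e : Set (S 3 F q))).toFinset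
  have memR : ∀ {u}, u ∈ Rs ↔ u ∈ H ⊓ Fix q e := fun {u} => by simp [Rs]
  set A := Rs.image fun u => hm q (mat u *ᵥ f) y
  have hsq : ∀ a ∈ A, a ≠ 0 → a ^ (q + 1) = σ := by
    intro a ha ha0
    obtain ⟨u, hu, rfl⟩ := Finset.mem_image.1 ha
    obtain ⟨huH, huQ⟩ := memR.1 hu
    obtain ⟨a, c, hp, rfl⟩ := fix_e_eq hF h huQ
    rw [Uc_f hF h hp, (h.pv_coord hF a c).2.2] at ha0 ⊢
    have hT : Uc hF e y a c * Uc hF e y a c ∈ Tsub q e := (mem_Tsub_iff hF h).2
      ⟨mul_mem huQ huQ, by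
        rw [alpha_mul hF h huQ huQ, Uc_f hF h hp, (h.pv_coord hF a c).2.2]
        linear_combination a * h2⟩
    obtain ⟨d, hd, hd'⟩ := Tsub_eq_T hF h hT
    have h1 := congrArg (fun s : S 3 F q => hm q (mat s *ᵥ f) f) hd'
    simp only [mat_mul, ← mulVec_mulVec, Uc_f hF h hp, pv, mulVec_add, mulVec_smul, Uc_y hF h hp,
      Uc_e hF h hp, T_mulVec hF h.P.ee hd, h.P.fe, mul_one] at h1
    simp [hm_add_left, hm_sub_left, hm_smul_left', h.P.ff, h.P.ef, h.W.2] at h1
    have hd2 : d = a ^ (q + 1) := by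
      rw [pow_succ']
      linear_combination -h1 + (c - a * a ^ q) * h2
    have hmem : T hF e d ∈ H := hd' ▸ H.mul_mem huH huH
    rw [← hd2]
    exact sigma_unique hF H heven h hs2 hd hσ (by rw [hd2]; exact pow_ne_zero _ ha0) hσ0 hmem hσH
  have hadd : ∀ a ∈ A, ∀ b ∈ A, a + b ∈ A := by
    intro a ha b hb
    obtain ⟨u, hu, rfl⟩ := Finset.mem_image.1 ha
    obtain ⟨v, hv, rfl⟩ := Finset.mem_image.1 hb
    refine Finset.mem_image.2 ⟨u * v, memR.2 (mul_mem (memR.1 hu) (memR.1 hv)), ?_⟩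
    exact alpha_mul hF h (memR.1 hu).2 (memR.1 hv).2
  have h0A : (0 : F) ∈ A := Finset.mem_image.2 ⟨1, memR.2 (one_mem _), by
    rw [mat_one, one_mulVec]; exact (h.swap hF).2⟩
  have hA4 : A.card ≤ 4 := by
    by_contra hA
    obtain ⟨a, ha⟩ : (A.erase 0).Nonempty := Finset.card_pos.1 (by
      rw [Finset.card_erase_of_mem h0A]; omega)
    obtain ⟨ha0, haA⟩ := Finset.mem_erase.1 ha
    obtain ⟨b, hb⟩ : ((A.erase 0).erase a).Nonempty := Finset.card_pos.1 (by
      rw [Finset.card_erase_of_mem ha, Finset.card_erase_of_mem h0A]; omega)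
    obtain ⟨hba, hb'⟩ := Finset.mem_erase.1 hb
    obtain ⟨hb0, hbA⟩ := Finset.mem_erase.1 hb'
    have root : ∀ z ∈ (A.erase 0).erase a, (z / a) * (z / a) + z / a + 1 = 0 := by
      intro z hz
      obtain ⟨hza, hz'⟩ := Finset.mem_erase.1 hz
      obtain ⟨hz0, hzA⟩ := Finset.mem_erase.1 hz'
      have e1 := hsq a haA ha0
      have e2 := hsq z hzA hz0
      have hne : a + z ≠ 0 := fun h0 => hza (by linear_combination h0 - a * h2)
      have e3 := hsq _ (hadd a haA z hzA) hne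
      have x1 : (z / a) ^ (q + 1) = 1 := by
        rw [div_pow, e1, e2, div_self hσ0]
      have x2 : (1 + z / a) ^ (q + 1) = 1 := by
        rw [show 1 + z / a = (a + z) / a by field_simp, div_pow, e1, e3, div_self hσ0]
      generalize z / a = x at x1 x2
      rw [pow_succ, Herm.conj_add hF, one_pow] at x2
      rw [pow_succ] at x1
      have x3 : x ^ q = 1 + x := by linear_combination x2 - x1 - (1 + x) * h2
      rw [x3] at x1
      linear_combination x1 + h2
    have hx := root b hb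
    have hsub : (A.erase 0).erase a ⊆ {b, (-(b / a) - 1) * a} := by
      intro z hz
      have hz' := root z hz
      have h3 : (z / a - b / a) * (z / a + b / a + 1) = 0 := by linear_combination hz' - hx
      rw [Finset.mem_insert, Finset.mem_singleton]
      rcases mul_eq_zero.1 h3 with h4 | h4
      · left
        exact (div_left_inj' ha0).1 (sub_eq_zero.1 h4)
      · right
        have : z / a = -(b / a) - 1 := by linear_combination h4
        rw [← this, div_mul_cancel₀ _ ha0]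
    have h5 := (Finset.card_le_card hsub).trans Finset.card_le_two
    rw [Finset.card_erase_of_mem ha, Finset.card_erase_of_mem h0A] at h5
    omega
  refine ⟨A, hA4, h0A, fun u hu => Finset.mem_image.2 ⟨u, memR.2 hu, rfl⟩, fun a ha => ?_, ?_⟩
  · obtain ⟨u, hu, rfl⟩ := Finset.mem_image.1 ha
    exact ⟨u, memR.1 hu, rfl⟩
  · rw [← card_toFinset (H ⊓ Fix q e)]
    refine Finset.card_le_mul_card_image Rs 2 fun b hb => ?_
    obtain ⟨u₀, hu₀, rfl⟩ := Finset.mem_image.1 hb
    rw [← hs2, ← card_toFinset (H ⊓ Tsub q e)]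
    refine Finset.card_le_card_of_injOn (fun u => u₀⁻¹ * u) ?_ (fun _ _ _ _ hh => mul_left_cancel hh)
    intro u hu
    simp only [Finset.mem_coe, Finset.mem_filter] at hu
    simp only [Set.Finite.coe_toFinset, SetLike.mem_coe]
    obtain ⟨h1, h3⟩ := memR.1 hu₀
    obtain ⟨h4, h5⟩ := memR.1 hu.1
    refine ⟨H.mul_mem (H.inv_mem h1) h4, (mem_Tsub_iff hF h).2 ⟨mul_mem (inv_mem h3) h5, ?_⟩⟩
    have h6 := alpha_mul hF h h3 (mul_mem (inv_mem h3) h5 : u₀⁻¹ * u ∈ Fix q e)
    rw [mul_inv_cancel_left, hu.2, left_eq_add] at h6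
    exact h6

theorem small_fields (hq : 3 ≤ q) {t : ℕ} (hG : Good H e t) :
    q = 8 ∧ Nat.card H ≤ 513 * 72 := by
  classical
  obtain ⟨σ, hσ, hσ0, hσH⟩ := exists_sigma hF H heven h hs2
  obtain ⟨A, hA4, h0A, hAmem, hAsurj, hr⟩ := r_bound hF H heven h hs2 hq
  obtain ⟨a, ha⟩ := exists_order hF hG.dvd
  obtain ⟨s, hs, hse⟩ := (hG.eig a).2 (ha ▸ pow_orderOf_eq_one a)
  have ha0 : a ≠ 0 := fun h0 => mulVec_ne_zero s h.P.e_ne (by rw [hse, h0, zero_smul])
  have hnorm : a ^ (q + 1) = 1 := by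
    have h1 : T hF e (σ * (a * a ^ q)) ∈ H := by
      rw [← T_conj_stab hF h hse hσ]
      exact H.mul_mem (H.mul_mem hs hσH) (H.inv_mem hs)
    have h2 := sigma_unique hF H heven h hs2 (hσ.mul_fixed (norm_fixed' hF a)) hσ
      (mul_ne_zero hσ0 (mul_ne_zero ha0 (pow_ne_zero _ ha0))) hσ0 h1 hσH
    rw [pow_succ']
    exact (mul_eq_left₀ hσ0).1 h2
  have ht : t ∣ q + 1 := ha ▸ orderOf_dvd_of_pow_eq_one hnorm
  have htle := Nat.le_of_dvd (by omega) ht
  have hle := hG.le
  set r := Nat.card ↥(H ⊓ Fix q e)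
  have hsq : q ^ 2 - 1 = (q + 1) * (q - 1) := by rw [← Nat.sq_sub_sq, one_pow]
  have h8 : r ≤ 8 := by omega
  have hq9 : q ≤ 9 := by
    have h1 := hle.trans (Nat.mul_le_mul h8 htle)
    rw [hsq, mul_comm 8] at h1
    have := Nat.le_of_mul_le_mul_left h1 (by omega)
    omega
  obtain ⟨p, m, hp, hm0, hqp, -⟩ := prime_pow hF
  have hcases : q = 4 ∨ q = 8 := by
    obtain ⟨o, ho⟩ := heven
    have h6 : q ≠ 6 := by
      intro h0
      have e2 : p = 2 := ((Nat.prime_dvd_prime_iff_eq Nat.prime_two hp).1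
        (Nat.prime_two.dvd_of_dvd_pow (show 2 ∣ p ^ m by rw [← hqp, h0]; norm_num))).symm
      have e3 : p = 3 := ((Nat.prime_dvd_prime_iff_eq Nat.prime_three hp).1
        (Nat.prime_three.dvd_of_dvd_pow (show 3 ∣ p ^ m by rw [← hqp, h0]; norm_num))).symm
      omega
    omega
  rcases hcases with h4 | h4
  · exfalso
    rw [h4] at hle ht htle
    norm_num at hle
    have ht5 : t = 5 := by
      rcases (Nat.dvd_prime (by norm_num : Nat.Prime 5)).1 ht with h0 | h0
      · rw [h0] at hle; omega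
      · exact h0
    have hA1 : A = {0} := by
      refine Finset.eq_singleton_iff_unique_mem.2 ⟨h0A, fun b hb => ?_⟩
      by_contra hb0
      set μ := a ^ q * a ^ q * a⁻¹
      have ha5 : orderOf a = 5 := ha.trans ht5
      have hμ : μ = a ^ 2 := by
        have h5 : a ^ 5 = 1 := ha5 ▸ pow_orderOf_eq_one a
        simp only [μ, h4]
        field_simp
        linear_combination h5
      have hcl : ∀ i : ℕ, μ ^ i * b ∈ A := fun i => by
        induction i with
        | zero => simpa using hb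
        | succ i ih =>
          obtain ⟨u, hu, hu'⟩ := hAsurj _ ih
          have h1 : s * u * s⁻¹ ∈ H ⊓ Fix q e := by
            refine ⟨H.mul_mem (H.mul_mem hs hu.1) (H.inv_mem hs), ?_⟩
            show s * u * s⁻¹ ∈ Fix q e
            rw [← Fix_smul ha0 e, ← hse]
            exact conj_mem_Fix s hu.2
          have h2 := hAmem _ h1
          rw [alpha_conj hF h ha0 hse hu.2, hu', ← mul_assoc, ← pow_succ'] at h2
          exact h2
      have hμ5 : orderOf μ = 5 := by
        rw [hμ, Nat.Coprime.orderOf_pow (by rw [ha5]; norm_num), ha5]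
      have hμ0 : μ ≠ 0 := by rw [hμ]; exact pow_ne_zero _ ha0
      have hle' : (Finset.range 5).card ≤ (A.erase 0).card := by
        refine Finset.card_le_card_of_injOn (fun i => μ ^ i * b) (fun i _ => ?_) fun i hi j hj hij => ?_
        · simp only [Finset.coe_erase, Set.mem_diff, Finset.mem_coe, Set.mem_singleton_iff]
          exact ⟨hcl i, mul_ne_zero (pow_ne_zero _ hμ0) hb0⟩
        · simp only [Finset.coe_range, Set.mem_Iio] at hi hj
          exact pow_injOn_Iio_orderOf (x := μ) (by rw [hμ5]; exact hi) (by rw [hμ5]; exact hj)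
            (mul_right_cancel₀ hb0 hij)
      rw [Finset.card_range, Finset.card_erase_of_mem h0A] at hle'
      omega
    rw [hA1, Finset.card_singleton] at hr
    rw [ht5] at hle
    omega
  · refine ⟨h4, ?_⟩
    have : r * t ≤ 8 * 9 := Nat.mul_le_mul h8 (by omega)
    have e1 : q ^ 3 + 1 = 513 := by rw [h4]; norm_num
    rw [hG.cardH, e1]
    exact Nat.mul_le_mul_left _ this

end Cfsg.Agent.Lib.MinIndexU3
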