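import Cfsg.Agent.Lib.MinIndexU3.CaseB

/-!
The field with `64` elements.
-/

set_option autoImplicit false

namespace Cfsg.Agent.Lib.MinIndexU3

open Matrix MulAction Cfsg.Agent.Lib.AutPSU Cfsg.Agent.Lib.Classical

universe u

variable {F : Type u} [Field F] [Fintype F] {q : ℕ} (hF : Fintype.card F = q ^ 2)

local notation "V" => (Fin 3 → F)

variable (H : Subgroup (S 3 F q)) (hZ : Subgroup.center (S 3 F q) ≤ H) (hidx : H.index ≤ q ^ 3)
variable (hq : q = 8) {e f y : Fin 3 → F} (h : Frame q e f y)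
  (hs2 : Nat.card ↥(H ⊓ Tsub q e) = 2)
include hF hZ hidx hq h hs2

/-- The elements with a distinguished eigenline. -/
def Bset (H : Subgroup (S 3 F q)) (W : Line F) : Set (S 3 F q) :=
  {g | g ∈ H ∧ (∃ ω : F, ω ^ 3 = 1 ∧ mat g *ᵥ W.rep = ω • W.rep) ∧
    ∀ (v : Fin 3 → F) (hv : v ≠ 0) (ω : F), ω ^ 3 = 1 → mat g *ᵥ v = ω • v → ln hv = W}

theorem bset_large {W : Line F} (hW : ¬Iso q W) : 18 ≤ (Bset H W).ncard := by
  classical
  have he : Even q := ⟨4, by omega⟩
  obtain ⟨t, ht0, ht⟩ := Herm.exists_norm hF (c := (hm q W.rep W.rep)⁻¹) (inv_ne_zero hW)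
    (by rw [inv_pow, hm_self_fixed hF])
  set w := t • W.rep with hw'
  have hw0 : w ≠ 0 := smul_ne_zero ht0 W.rep_nonzero
  have hww : hm q w w = 1 := by
    rw [hm_smul_left', hm_smul_right, ← mul_assoc, ← pow_succ', ht, inv_mul_cancel₀ hW]
  have hlnw : ln hw0 = W := by
    refine Eq.trans ((ln_eq_iff hw0 W.rep_nonzero).2 ⟨t, rfl⟩) (ln_rep W)
  obtain ⟨v, g, hfr⟩ := exists_frame_unit hF hww
  have hBne : H ⊓ Tsub q e ≠ ⊥ := fun h0 => by rw [h0, Subgroup.card_bot] at hs2; omega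
  have hcv : Nat.card ↥(H ⊓ Tsub q v) = 2 :=
    (card_Tsub_inf hF H hidx hfr.P.valid_e h.P.valid_e).trans hs2
  rcases plane_count hF H hidx he h.P.valid_e hBne hfr with h1 | ⟨-, a, haw, ha0, haa, hst⟩
  · omega
  rw [show q + 1 = 9 by omega] at hst
  obtain ⟨b, hli, hb⟩ := third hF hfr haa haw
  set L := H ⊓ Fix q w ⊓ stabilizer (S 3 F q) (ln ha0)
  have eig : ∀ c : L, mat (c : S 3 F q) *ᵥ a = (hm q (mat (c : S 3 F q) *ᵥ a) a / hm q a a) • a :=
    fun c => by
    obtain ⟨x, -, hx⟩ := (fix_ln_iff _ ha0).1 c.2.2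
    rw [hx, hm_smul_left', mul_div_assoc, div_self haa, mul_one]
  have hfull : ∀ β : F, β ^ 9 = 1 → ∃ c : L, mat (c : S 3 F q) *ᵥ a = β • a := by
    let φ : L → {β : F // β ^ 9 = 1} := fun c => ⟨hm q (mat (c : S 3 F q) *ᵥ a) a / hm q a a, by
      have h1 := iso (c : S 3 F q) a a
      conv_lhs at h1 => rw [eig c, hm_smul_left', hm_smul_right, ← mul_assoc, ← pow_succ']
      rw [show (9 : ℕ) = q + 1 by omega]
      exact (mul_eq_right₀ haa).1 h1⟩
    have hφ : Function.Injective φ := by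
      intro c c' hh
      have hh' : hm q (mat (c : S 3 F q) *ᵥ a) a / hm q a a =
          hm q (mat (c' : S 3 F q) *ᵥ a) a / hm q a a := congrArg Subtype.val hh
      have h1 : mat ((c : S 3 F q)⁻¹ * (c' : S 3 F q)) *ᵥ a = (1 : F) • a := by
        rw [mat_mul, ← mulVec_mulVec, eig c', ← hh', ← eig c, mulVec_inv_cancel, one_smul]
      have h2 : mat ((c : S 3 F q)⁻¹ * (c' : S 3 F q)) *ᵥ w = (1 : F) • w := by
        rw [one_smul]; exact mem_Fix.1 (mul_mem (inv_mem c.2.1.2) c'.2.1.2)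
      obtain ⟨ν, hν, hprod⟩ := hb _ 1 1 one_ne_zero one_ne_zero h1 h2
      rw [one_mul, mul_one] at hprod
      refine Subtype.ext (inv_mul_eq_one.1 ((eigen3 hli (s := (c : S 3 F q)⁻¹ * (c' : S 3 F q))
        (d := ![1, ν, 1]) fun i => ?_).2 fun i => ?_))
      · fin_cases i <;> simp [h1, h2, hν]
      · fin_cases i <;> simp [hprod]
    have h9 : (9 : ℕ) ∣ q ^ 2 - 1 := by rw [hq]; norm_num
    intro β hβ
    obtain ⟨c, hc⟩ := ((Nat.bijective_iff_injective_and_card φ).2
      ⟨hφ, by rw [hst, card_roots_one hF h9]⟩).2 ⟨β, hβ⟩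
    refine ⟨c, ?_⟩
    rw [eig c, show hm q (mat (c : S 3 F q) *ᵥ a) a / hm q a a = β from congrArg Subtype.val hc]
  choose c hc using hfull
  have hcy : ∀ β hβ, mat (c β hβ : S 3 F q) *ᵥ w = w := fun β hβ => (c β hβ).2.1.2
  let D := ↥(Subgroup.center (S 3 F q)) × {β : F // β ^ 9 = 1 ∧ ¬β ^ 3 = 1}
  let Φ : D → S 3 F q := fun d => (d.1 : S 3 F q) * (c d.2.1 d.2.2.1 : S 3 F q)
  have scal : ∀ z : ↥(Subgroup.center (S 3 F q)), ∃ ω : F, ω ^ 3 = 1 ∧ mat (z : S 3 F q) = ω • 1 := by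
    intro z
    obtain ⟨ω, hω⟩ := Herm.scalar_of_mem_center_SU hF (by omega) z.2
    have hω' : mat (z : S 3 F q) = ω • 1 := hω
    refine ⟨ω, ?_, hω'⟩
    have hdet : (mat (z : S 3 F q)).det = 1 :=
      ((z : S 3 F q) : Matrix.SpecialLinearGroup (Fin 3) F).2
    rwa [hω', det_smul, det_one, mul_one, Fintype.card_fin] at hdet
  have hΦmem : ∀ d, Φ d ∈ Bset H W := by
    rintro ⟨z, β, hβ, hβ3⟩
    obtain ⟨ω, hω, hzω⟩ := scal z
    have hz : ∀ x : V, mat (z : S 3 F q) *ᵥ x = ω • x := fun x => by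
      rw [hzω, smul_mulVec, one_mulVec]
    have hβ0 : β ≠ 0 := fun h0 => by rw [h0, zero_pow (by omega)] at hβ; exact zero_ne_one hβ
    obtain ⟨ν, hν, hprod⟩ := hb _ β 1 hβ0 one_ne_zero (hc β hβ) (by rw [one_smul]; exact hcy β hβ)
    rw [mul_one] at hprod
    have hΦw : mat (Φ (z, ⟨β, hβ, hβ3⟩)) *ᵥ w = ω • w := by
      show mat ((z : S 3 F q) * (c β hβ : S 3 F q)) *ᵥ w = _
      rw [mat_mul, ← mulVec_mulVec, hcy, hz]
    refine ⟨H.mul_mem (hZ z.2) (c β hβ).2.1.1, ⟨ω, hω, ?_⟩, fun x hx ω' hω' hgx => ?_⟩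
    · have h1 := hΦw
      rw [hw', mulVec_smul, smul_comm ω] at h1
      exact (smul_right_injective (Fin 3 → F) ht0) h1
    · let bs := basisOfLinearIndependentOfCardEqFinrank hli (by simp)
      have hs := bs.sum_repr x
      simp only [bs, coe_basisOfLinearIndependentOfCardEqFinrank, Fin.sum_univ_three,
        Matrix.cons_val_zero, Matrix.cons_val_one, Matrix.cons_val_two, Matrix.tail_cons,
        Matrix.head_cons] at hs
      generalize (basisOfLinearIndependentOfCardEqFinrank hli _).repr x = k at hs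
      change mat ((z : S 3 F q) * (c β hβ : S 3 F q)) *ᵥ x = _ at hgx
      rw [← hs, mat_mul, ← mulVec_mulVec] at hgx
      simp only [mulVec_add, mulVec_smul, hc β hβ, hν, hcy, hz] at hgx
      have h3 : (k 0 * (ω * β - ω')) • a + (k 1 * (ω * ν - ω')) • b + (k 2 * (ω - ω')) • w = 0 := by
        linear_combination (norm := module) hgx
      have h4 := Fintype.linearIndependent_iff.1 hli
        ![k 0 * (ω * β - ω'), k 1 * (ω * ν - ω'), k 2 * (ω - ω')]
        (by simpa [Fin.sum_univ_three] using h3)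
      have hnz : ω ^ 3 ≠ 0 := by rw [hω]; exact one_ne_zero
      have e0 : k 0 = 0 := by
        have h40 := h4 0
        simp only [Matrix.cons_val_zero, mul_eq_zero, sub_eq_zero] at h40
        refine h40.resolve_right fun h5 => hβ3 ?_
        rw [← h5, mul_pow, hω, one_mul] at hω'
        exact hω'
      have e1 : k 1 = 0 := by
        have h41 := h4 1
        simp only [Matrix.cons_val_one, Matrix.cons_val_zero, mul_eq_zero, sub_eq_zero] at h41
        refine h41.resolve_right fun h5 => hβ3 ?_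
        rw [← h5, mul_pow, hω, one_mul] at hω'
        calc β ^ 3 = (β * ν) ^ 3 := by rw [mul_pow, hω', mul_one]
          _ = 1 := by rw [hprod, one_pow]
      rw [e0, e1, zero_smul, zero_smul, zero_add, zero_add] at hs
      rw [← hlnw]
      exact (ln_eq_iff hx hw0).2 ⟨k 2, hs⟩
  have hΦinj : Function.Injective Φ := by
    rintro ⟨z, β, hβ, hβ3⟩ ⟨z', β', hβ', hβ3'⟩ hh
    have hh' : (z : S 3 F q) * (c β hβ : S 3 F q) = (z' : S 3 F q) * (c β' hβ' : S 3 F q) := hh
    obtain ⟨ω, -, hzω⟩ := scal z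
    obtain ⟨ω', -, hzω'⟩ := scal z'
    have h1 := congrArg (fun x : S 3 F q => mat x *ᵥ w) hh'
    simp only [mat_mul, ← mulVec_mulVec, hcy, hzω, hzω', smul_mulVec, one_mulVec] at h1
    have hzz : z = z' := Subtype.ext (mat_ext (by
      rw [hzω, hzω', smul_left_injective F hw0 h1]))
    subst hzz
    have h2 := congrArg (fun x : S 3 F q => mat x *ᵥ a) (mul_left_cancel hh')
    simp only [hc] at h2
    obtain rfl := smul_left_injective F ha0 h2
    rfl
  have hcard : 18 ≤ Nat.card D := by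
    rw [Nat.card_prod, Herm.card_center_SU hF (by omega), hq]
    have h6 : 6 ≤ Nat.card {β : F // β ^ 9 = 1 ∧ ¬β ^ 3 = 1} := by
      have h9 : Nat.card {β : F // β ^ 9 = 1} = 9 := card_roots_one hF (by rw [hq]; norm_num)
      have h3 : Nat.card {β : F // β ^ 3 = 1} = 3 := card_roots_one hF (by rw [hq]; norm_num)
      rw [Nat.card_eq_fintype_card, Fintype.card_subtype] at h9 h3 ⊢
      have hsub : (Finset.univ.filter fun β : F => β ^ 9 = 1) ⊆
          (Finset.univ.filter fun β : F => β ^ 9 = 1 ∧ ¬β ^ 3 = 1) ∪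
            (Finset.univ.filter fun β : F => β ^ 3 = 1) := by
        intro x hx
        simp only [Finset.mem_filter, Finset.mem_univ, true_and, Finset.mem_union] at hx ⊢
        tauto
      have := (Finset.card_le_card hsub).trans (Finset.card_union_le _ _)
      omega
    rw [show Nat.gcd 3 (8 + 1) = 3 by norm_num]
    omega
  calc 18 ≤ Nat.card D := hcard
    _ = (Set.range Φ).ncard := by rw [← Nat.card_coe_set_eq, Nat.card_range_of_injective hΦinj]
    _ ≤ _ := Set.ncard_le_ncard (by rintro _ ⟨d, rfl⟩; exact hΦmem d)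

theorem no_eight (hle : Nat.card H ≤ 513 * 72) : False := by
  classical
  set An := (Finset.univ : Finset (Line F)).filter fun W => ¬Iso q W
  have hcard : An.card = 3648 := by
    have h1 := Finset.card_filter_add_card_filter_not (s := (Finset.univ : Finset (Line F))) (Iso q)
    change (pts q : Finset (Line F)).card + An.card = _ at h1
    rw [card_pts hF h, Finset.card_univ, ← Nat.card_eq_fintype_card] at h1
    have h2 : Nat.card (Fin 3 → F) = Nat.card (Line F) * (Nat.card F - 1) + 1 :=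
      Projectivization.card' F (Fin 3 → F)
    rw [Nat.card_fun, Nat.card_fin, Nat.card_eq_fintype_card (α := F), hF, hq] at h2
    rw [hq] at h1
    norm_num at h1 h2
    omega
  set Hs := (Set.toFinite (H : Set (S 3 F q))).toFinset with hHs
  have hsum : An.card * 18 ≤ ∑ W ∈ An, ((Bset H W).toFinset).card := by
    rw [← smul_eq_mul]
    refine Finset.card_nsmul_le_sum _ _ _ fun W hW => ?_
    rw [← Set.ncard_eq_toFinset_card']
    exact bset_large hF H hZ hidx hq h hs2 (Finset.mem_filter.1 hW).2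
  have hdisj : (An : Set (Line F)).PairwiseDisjoint fun W => (Bset H W).toFinset := by
    intro W _ W' _ hne
    refine Finset.disjoint_left.2 fun g hg hg' => hne ?_
    rw [Set.mem_toFinset] at hg hg'
    obtain ⟨ω, hω, hgW⟩ := hg.2.1
    rw [← ln_rep W]
    exact hg'.2.2 _ W.rep_nonzero ω hω hgW
  rw [← Finset.card_biUnion hdisj] at hsum
  have hsub : (An.biUnion fun W => (Bset H W).toFinset) ⊆ Hs := by
    intro g hg
    obtain ⟨W, -, hg⟩ := Finset.mem_biUnion.1 hg
    rw [Set.mem_toFinset] at hg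
    rw [Set.Finite.mem_toFinset]
    exact hg.1
  have h3 := hsum.trans (Finset.card_le_card hsub)
  rw [card_toFinset H, hcard] at h3
  omega

end Cfsg.Agent.Lib.MinIndexU3
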