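import Cfsg.Agent.Lib.MinIndexU3.CaseBTools

/-!
Small index with transvections in even characteristic: the plane count.
-/

set_option autoImplicit false

namespace Cfsg.Agent.Lib.MinIndexU3

open Matrix MulAction Cfsg.Agent.Lib.AutPSU Cfsg.Agent.Lib.Classical

universe u

variable {F : Type u} [Field F] [Fintype F] {q : ℕ} (hF : Fintype.card F = q ^ 2)

local notation "V" => (Fin 3 → F)

variable (H : Subgroup (S 3 F q)) (hidx : H.index ≤ q ^ 3) (heven : Even q)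
variable {e₀ : Fin 3 → F} (he₀ : Valid q e₀) (hB : H ⊓ Tsub q e₀ ≠ ⊥)
variable {e f y : Fin 3 → F} (h : Frame q e f y)
include hF hidx heven he₀ hB h

omit hidx he₀ hB in
theorem eq_of_sq_eq {a b : F} (hab : a * a = b * b) : a = b := by
  have h2 := two_eq_zero hF heven
  have : (a - b) * (a - b) = 0 := by linear_combination hab + (b * b - a * b) * h2
  exact sub_eq_zero.1 ((mul_eq_zero.1 this).elim id id)

omit hidx he₀ hB in
theorem eig_fixed {c : S 3 F q} (hc : c ∈ Fix q y) {v : V} (hv : Valid q v) (hvy : hm q v y = 0)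
    {a : F} (hcv : mat c *ᵥ v = a • v) : a ≠ 0 ∧ a ^ q = a ∧ (a = 1 → c ∈ Tsub q v) := by
  have ha0 : a ≠ 0 := fun h0 => mulVec_ne_zero c hv.1 (by rw [hcv, h0, zero_smul])
  obtain ⟨g, h'⟩ := exists_frame_perp hF hv hvy h.N
  obtain ⟨⟨b, hy'⟩, -⟩ := stab_shape hF h' ha0 hcv
  rw [mem_Fix.1 hc] at hy'
  have h1 := congrArg (fun z => hm q z y) hy'
  simp [hm_add_left, hm_smul_left', h'.N, hvy] at h1
  refine ⟨ha0, ?_, fun h1' => ?_⟩
  · field_simp at h1
    linear_combination -h1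
  · subst h1'
    rw [one_smul] at hcv
    obtain ⟨x, d, hp, rfl⟩ := fix_e_eq hF h' hcv
    refine (mem_Tsub_iff hF h').2 ⟨hcv, ?_⟩
    have h2 := mem_Fix.1 hc
    rw [Uc_y hF h' hp, sub_eq_self, smul_eq_zero] at h2
    rw [Uc_f hF h' hp, (h'.pv_coord hF x d).2.2]
    exact (pow_eq_zero_iff (n := q) (by have := Herm.two_le_q hF; omega)).1 (h2.resolve_right hv.1)

/-- The stabiliser of a point of the plane in the fixer of its normal. -/
theorem plane_stab : ∃ d : ℕ, 1 ≤ d ∧ d + 1 ≤ Nat.card ↥(H ⊓ Tsub q e) ∧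
    Nat.card ↥(H ⊓ Fix q y ⊓ stabilizer (S 3 F q) (ln h.P.e_ne)) =
      Nat.card ↥(H ⊓ Tsub q e) * d := by
  classical
  set L := H ⊓ Fix q y ⊓ stabilizer (S 3 F q) (ln h.P.e_ne)
  have eig : ∀ s : L, mat (s : S 3 F q) *ᵥ e = hm q (mat (s : S 3 F q) *ᵥ e) f • e := fun s => by
    obtain ⟨a, -, ha⟩ := (fix_ln_iff _ _).1 s.2.2
    rw [ha, hm_smul_left', h.P.ef, mul_one]
  let χ : L →* F :=
    { toFun := fun s => hm q (mat (s : S 3 F q) *ᵥ e) f
      map_one' := by simp [mat_one, h.P.ef]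
      map_mul' := fun s s' => by
        show hm q (mat ((s : S 3 F q) * (s' : S 3 F q)) *ᵥ e) f = _
        conv_lhs => rw [mat_mul, ← mulVec_mulVec, eig s', mulVec_smul, hm_smul_left', mul_comm] }
  let ψ : L →* Fˣ := χ.toHomUnits
  have hψ : ∀ s : L, ((ψ s : Fˣ) : F) = hm q (mat (s : S 3 F q) *ᵥ e) f := fun s => rfl
  have facts : ∀ s : L, ((ψ s : Fˣ) : F) ^ q = ψ s ∧ (ψ s = 1 → (s : S 3 F q) ∈ Tsub q e) :=
    fun s => by
    obtain ⟨-, h1, h2⟩ := eig_fixed hF heven h s.2.1.2 h.P.valid_e (h.swap hF).1 (eig s)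
    exact ⟨h1, fun h0 => h2 (by rw [← hψ, h0, Units.val_one])⟩
  have hker : Nat.card ψ.ker = Nat.card ↥(H ⊓ Tsub q e) := by
    refine Nat.card_congr ⟨fun s => ⟨s.1.1, s.1.2.1.1, (facts s.1).2 s.2⟩,
      fun s => ⟨⟨s.1, ⟨s.2.1, Tsub_le_Fix h.W.1 s.2.2⟩, ?_⟩, ?_⟩, fun _ => rfl, fun _ => rfl⟩
    · exact (fix_ln_iff _ _).2 ⟨1, one_ne_zero, by rw [one_smul]; exact s.2.2 e h.P.ee⟩
    · refine Units.ext ?_
      rw [hψ, Units.val_one, s.2.2 e h.P.ee, h.P.ef]
  refine ⟨Nat.card ψ.range, Nat.card_pos, ?_, by rw [← ψ.ker.card_mul_index, hker,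
    Subgroup.index_ker]⟩
  have hne : H ⊓ Tsub q e ≠ ⊥ := fun h0 => hB (Subgroup.eq_bot_of_card_eq _ (by
    rw [card_Tsub_inf hF H hidx he₀ h.P.valid_e, h0, Subgroup.card_bot]))
  obtain ⟨⟨t₀, ht₀⟩, ht₀'⟩ := Subgroup.ne_bot_iff_exists_ne_one.1 hne
  obtain ⟨c₀, hc₀, rfl⟩ := Tsub_eq_T hF h ht₀.2
  have hc00 : c₀ ≠ 0 := fun h0 => ht₀' (Subtype.ext (by rw [Subgroup.coe_one]; simp [h0, T_zero hF h.P.ee]))
  have hsk : ∀ u : ψ.range, Skew q (c₀ * (((u : Fˣ) : F) * ((u : Fˣ) : F) ^ q)) := fun u =>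
    hc₀.mul_fixed (norm_fixed' hF _)
  have hpar : ∀ u : ψ.range, ((u : Fˣ) : F) ^ q = ((u : Fˣ) : F) := by
    rintro ⟨-, s, rfl⟩; exact (facts s).1
  have hmem : ∀ u : ψ.range,
      T hF e (c₀ * (((u : Fˣ) : F) * ((u : Fˣ) : F) ^ q)) ∈ H ⊓ Tsub q e := by
    rintro ⟨-, s, rfl⟩
    refine ⟨?_, T_mem_Tsub hF h (hsk ⟨_, s, rfl⟩)⟩
    show T hF e (c₀ * (((ψ s : Fˣ) : F) * ((ψ s : Fˣ) : F) ^ q)) ∈ H
    rw [hψ s, ← T_conj_stab hF h (eig s) hc₀]
    exact H.mul_mem (H.mul_mem s.2.1.1 ht₀.1) (H.inv_mem s.2.1.1)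
  have happ : ∀ c, Skew q c → mat (T hF e c) *ᵥ f = f + c • e := fun c hc => by
    rw [T_mulVec hF h.P.ee hc, h.P.fe, mul_one]
  have hle := Nat.card_le_card_of_injective (fun o : Option ψ.range =>
    o.elim (1 : ↥(H ⊓ Tsub q e)) fun u => ⟨_, hmem u⟩) (by
    have hinj : ∀ u : ψ.range, c₀ * (((u : Fˣ) : F) * ((u : Fˣ) : F) ^ q) ≠ 0 := fun u =>
      mul_ne_zero hc00 (mul_ne_zero (u : Fˣ).ne_zero (pow_ne_zero _ (u : Fˣ).ne_zero))
    have hone : ∀ u : ψ.range, (⟨_, hmem u⟩ : ↥(H ⊓ Tsub q e)) ≠ 1 := fun u h0 => hinj u (by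
      have h1 := congrArg (fun x : ↥(H ⊓ Tsub q e) => mat (x : S 3 F q) *ᵥ f) h0
      simp only [Subgroup.coe_one, mat_one, one_mulVec, happ _ (hsk u), add_eq_left,
        smul_eq_zero] at h1
      exact h1.resolve_right h.P.e_ne)
    rintro (_ | u) (_ | u') hh
    · rfl
    · exact absurd hh.symm (hone u')
    · exact absurd hh (hone u)
    · have h1 := congrArg (fun x : ↥(H ⊓ Tsub q e) => mat (x : S 3 F q) *ᵥ f) hh
      simp only [Option.elim_some, happ _ (hsk u), happ _ (hsk u')] at h1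
      have h2 := mul_left_cancel₀ hc00 (smul_left_injective F h.P.e_ne (add_left_cancel h1))
      rw [hpar u, hpar u'] at h2
      exact congrArg some (Subtype.ext (Units.ext (eq_of_sq_eq hF heven h h2))))
  rwa [Finite.card_option] at hle

open _root_.Classical in
theorem fixed_add_transv {c : S 3 F q} (hc : c ∈ H ⊓ Fix q y) (hc1 : c ≠ 1) :
    ((lw q y).filter fun L => c • L = L).card +
      (((lw q y).filter (Iso q)).filter fun L => c ∈ Tsub q L.rep).card = 2 := by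
  have hTfix : ∀ M : Line F, M ∈ lw q y → Iso q M → c ∈ Tsub q M.rep →
      (lw q y).filter (fun L => c • L = L) = {M} := by
    intro M hM hi hT
    obtain ⟨g, h'⟩ := exists_frame_perp hF ⟨M.rep_nonzero, hi⟩ (mem_lw.1 hM) h.N
    rw [fixed_transvection hF h' hT hc1, ln_rep]
  by_cases hT : ∃ M ∈ (lw q y).filter (Iso q), c ∈ Tsub q M.rep
  · obtain ⟨M, hM, hT⟩ := hT
    obtain ⟨hM1, hM2⟩ := Finset.mem_filter.1 hM
    have e1 : ((lw q y).filter (Iso q)).filter (fun L => c ∈ Tsub q L.rep) = {M} := by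
      ext L
      rw [Finset.mem_filter, Finset.mem_singleton]
      refine ⟨fun hL => ?_, fun hL => hL ▸ ⟨hM, hT⟩⟩
      have h1 := hTfix L (Finset.mem_filter.1 hL.1).1 (Finset.mem_filter.1 hL.1).2 hL.2
      rw [hTfix M hM1 hM2 hT] at h1
      exact (Finset.singleton_injective h1).symm
    rw [e1, hTfix M hM1 hM2 hT, Finset.card_singleton]
  push Not at hT
  rw [Finset.filter_false_of_mem hT, Finset.card_empty, add_zero]
  rcases plane_dichotomy hF h one_ne_zero (show mat c *ᵥ y = (1 : F) • y by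
      rw [one_smul]; exact hc.2) with ⟨v, hv, hvy, a, hcv⟩ |
    ⟨a, b, α, β, hay, hby, haa, hbb, -, hga, hgb, hab⟩
  · obtain ⟨ha0, haq, hone⟩ := eig_fixed hF heven h hc.2 hv hvy hcv
    have ha1 : a ≠ 1 := fun h0 => hT (ln hv.1)
      (Finset.mem_filter.2 ⟨mem_lw.2 ((perp_ln hF _).2 hvy), (iso_ln hF _).2 hv.2⟩) (by
        obtain ⟨b, hb, e⟩ := rep_ln hv.1
        rw [e, Tsub_smul hb]
        exact hone h0)
    obtain ⟨g, h'⟩ := exists_frame_perp hF hv hvy h.N
    obtain ⟨-, ⟨x, d, hcg⟩⟩ := stab_shape hF h' ha0 hcv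
    have hx : x = 0 := by
      have h1 := iso c g y
      rw [hcg, mem_Fix.1 hc.2] at h1
      simpa [hm_add_left, hm_smul_left', hvy, (h'.swap hF).2, h'.N] using h1
    rw [hx, zero_smul, add_zero, haq] at hcg
    have hne : a⁻¹ ≠ a := fun h0 => ha1 (eq_of_sq_eq hF heven h (by
      rw [one_mul]; conv_lhs => arg 2; rw [← h0]
      exact mul_inv_cancel₀ ha0))
    set δ := d / (a⁻¹ - a) with hδ'
    have hδ : δ * (a⁻¹ - a) = d := div_mul_cancel₀ _ (sub_ne_zero.2 hne)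
    set g' := g + δ • v with hg'
    have hg'y : hm q g' y = 0 := by simp [g', hm_add_left, hm_smul_left', hvy, (h'.swap hF).2]
    have hg'ne : g' ≠ 0 := fun h0 => by
      have := congrArg (fun u => hm q u v) h0
      simp [g', hm_add_left, hm_smul_left', h'.P.fe, h'.P.ee, hm_zero_left] at this
    have hcg' : mat c *ᵥ g' = a⁻¹ • g' := by
      simp only [g', mulVec_add, mulVec_smul, hcg, hcv]
      match_scalars <;> first | linear_combination -hδ | ring
    obtain ⟨he, hne'⟩ := fixed_pair hF h hg'y hvy hg'ne hv.1 hcg' hcv hne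
    rw [he, Finset.card_pair hne']
  · have ha0 : a ≠ 0 := fun h0 => haa (by rw [h0, hm_zero_left])
    have hb0 : b ≠ 0 := fun h0 => hbb (by rw [h0, hm_zero_left])
    obtain ⟨he, hne'⟩ := fixed_pair hF h hay hby ha0 hb0 hga hgb hab
    rw [he, Finset.card_pair hne']

/-- The count in the plane: either all transvections of a centre, or two of them. -/
theorem plane_count : Nat.card ↥(H ⊓ Tsub q e) = q ∨
    (Nat.card ↥(H ⊓ Tsub q e) = 2 ∧ ∃ a : V, hm q a y = 0 ∧ ∃ ha : a ≠ 0, hm q a a ≠ 0 ∧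
      Nat.card ↥(H ⊓ Fix q y ⊓ stabilizer (S 3 F q) (ln ha)) = q + 1) := by
  classical
  have hq := Herm.two_le_q hF
  obtain ⟨d, hd1, hd, hstab⟩ := plane_stab hF H hidx heven he₀ hB h
  set s := Nat.card ↥(H ⊓ Tsub q e) with hs
  have hsq : s ≤ q := by
    exact (Nat.le_of_dvd Nat.card_pos (Subgroup.card_dvd_of_le inf_le_right)).trans (card_Tsub hF h).le
  set L := H ⊓ Fix q y
  have heL : ln h.P.e_ne ∈ lw q y := mem_lw.2 (perp_e hF h)
  have hg := card_plane hF H hidx he₀ hB h heL ((iso_ln hF _).2 h.P.ee)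
  rw [hstab] at hg
  have hiso : ∀ M ∈ (lw q y).filter (Iso q),
      Nat.card ↥(L ⊓ stabilizer (S 3 F q) M) = s * d ∧ Nat.card ↥(L ⊓ Tsub q M.rep) = s := by
    intro M hM
    obtain ⟨hM1, hM2⟩ := Finset.mem_filter.1 hM
    have h1 := card_plane hF H hidx he₀ hB h hM1 hM2
    rw [hg] at h1
    refine ⟨(Nat.eq_of_mul_eq_mul_left (by omega) h1).symm, ?_⟩
    rw [hs, card_Tsub_inf hF H hidx h.P.valid_e (⟨M.rep_nonzero, hM2⟩ : Valid q M.rep)]
    congr 2
    ext x
    exact ⟨fun hx => ⟨hx.1.1, hx.2⟩,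
      fun hx => ⟨⟨hx.1, Tsub_le_Fix (hm_comm_zero hF (mem_lw.1 hM1)) hx.2⟩, hx.2⟩⟩
  set Ls := (Set.toFinite (L : Set (S 3 F q))).toFinset with hLs
  have hsum := sum_stab L (lw q y)
  rw [← Finset.sum_filter_add_sum_filter_not (lw q y) (Iso q) (fun M => Nat.card ↥(L ⊓ stabilizer (S 3 F q) M)),
    Finset.sum_congr rfl (s₁ := (lw q y).filter (Iso q)) (g := fun _ => s * d) (fun M hM => (hiso M hM).1),
    Finset.sum_const, smul_eq_mul, card_lw_iso hF h] at hsum
  have hT : ∑ M ∈ (lw q y).filter (Iso q), Nat.card ↥(L ⊓ Tsub q M.rep) =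
      ∑ c ∈ Ls, (((lw q y).filter (Iso q)).filter fun M => c ∈ Tsub q M.rep).card := by
    simp only [Finset.card_filter]
    rw [Finset.sum_comm]
    refine Finset.sum_congr rfl fun M _ => ?_
    rw [← Finset.card_filter, ← card_toFinset]
    congr 1
    ext x
    simp [Ls, Subgroup.mem_inf]
  rw [Finset.sum_congr rfl (g := fun _ => s) fun M hM => (hiso M hM).2, Finset.sum_const,
    smul_eq_mul, card_lw_iso hF h] at hT
  have hall : (q + 1) * (s * d) + ∑ M ∈ (lw q y).filter (fun M => ¬Iso q M),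
      Nat.card ↥(L ⊓ stabilizer (S 3 F q) M) + (q + 1) * s = (q ^ 2 + 1) + (q + 1) + 2 * ((q + 1) * (s * d) - 1) := by
    rw [hsum, hT, ← Finset.sum_add_distrib]
    have h1 : (1 : S 3 F q) ∈ Ls := by simp [Ls]
    rw [← Finset.add_sum_erase _ _ h1, Finset.sum_congr rfl (g := fun _ => 2) fun c hc => by
        obtain ⟨hc1, hc⟩ := Finset.mem_erase.1 hc
        exact fixed_add_transv hF H hidx heven he₀ hB h ((Set.Finite.mem_toFinset _).1 hc) hc1,
      Finset.sum_const, smul_eq_mul, Finset.card_erase_of_mem h1, card_toFinset, hg, mul_comm _ 2,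
      Finset.filter_true_of_mem (fun M _ => one_smul _ M),
      Finset.filter_true_of_mem (fun M _ => one_mem (Tsub q M.rep)), card_lw hF h, card_lw_iso hF h]
  set X := (lw q y).filter fun M => ¬Iso q M with hX'
  have hX : X.card + q = q ^ 2 := card_lw_aniso hF h
  set st : Line F → ℕ := fun M => Nat.card ↥(L ⊓ stabilizer (S 3 F q) M) with hst
  have hst1 : ∀ M ∈ X, 1 ≤ st M := fun M _ => Nat.card_pos
  have hS := Finset.sum_tsub_distrib X hst1
  rw [Finset.sum_const, smul_eq_mul, mul_one] at hS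
  have hsd : (q + 1) * s ≤ (q + 1) * (s * d) :=
    Nat.mul_le_mul_left _ (Nat.le_mul_of_pos_right _ hd1)
  have hXle : X.card ≤ ∑ M ∈ X, st M := by
    simpa using Finset.card_nsmul_le_sum X st 1 hst1
  change (q + 1) * (s * d) + ∑ M ∈ X, st M + _ = _ at hall
  have hgpos : 1 ≤ (q + 1) * (s * d) := Nat.one_le_iff_ne_zero.2 (Nat.mul_ne_zero (by omega)
    (Nat.mul_ne_zero (by omega) (by omega)))
  obtain ⟨Sg, hSg⟩ : ∃ n, ∑ M ∈ X, (st M - 1) = n := ⟨_, rfl⟩
  have hSeq : Sg + (q + 1) * s = (q + 1) * (s * d) + 2 * q := by omega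
  have hs2q : 2 * q < (q + 1) * s := by
    have : (q + 1) * 2 ≤ (q + 1) * s := Nat.mul_le_mul_left _ (by omega)
    omega
  set O : Line F → Finset (Line F) := fun M => X.filter (· ∈ orbit L M)
  have hinv : ∀ c ∈ L, ∀ M ∈ X, c • M ∈ X := fun c hc M hM => by
    simp only [X, Finset.mem_filter, mem_lw] at hM ⊢
    exact ⟨(perp_smul hF _ one_ne_zero (by rw [one_smul]; exact hc.2) M).2 hM.1,
      fun hi => hM.2 ((iso_smul hF c M).1 hi)⟩
  have hO : ∀ M ∈ X, (O M).card * st M = (q + 1) * (s * d) ∧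
      ∑ N ∈ O M, (st N - 1) + (O M).card = (q + 1) * (s * d) := by
    intro M hM
    have e1 : ∀ N ∈ X, (O N).card * st N = (q + 1) * (s * d) := fun N hN => by
      rw [← hg, ← card_orbit_mul_stab L N, ← Set.ncard_coe_finset]
      congr 2
      ext z
      simp only [O, Finset.coe_filter, Set.mem_setOf_eq]
      refine ⟨fun h => h.2, fun h => ⟨?_, h⟩⟩
      obtain ⟨g, rfl⟩ := h
      exact hinv _ g.2 _ hN
    refine ⟨e1 M hM, ?_⟩
    have hconst : ∀ N ∈ O M, st N = st M := by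
      intro N hN
      obtain ⟨hNX, hNM⟩ := Finset.mem_filter.1 hN
      have h1 := e1 N hNX
      rw [show O N = O M from Finset.filter_congr fun w _ => by rw [orbit_eq_iff.2 hNM]] at h1
      exact Nat.eq_of_mul_eq_mul_left (Finset.card_pos.2 ⟨N, hN⟩) (h1.trans (e1 M hM).symm)
    rw [Finset.sum_congr rfl fun N hN => by rw [hconst N hN], Finset.sum_const, smul_eq_mul,
      ← e1 M hM]
    obtain ⟨k, hk⟩ : ∃ k, st M = k + 1 := ⟨st M - 1, by have := hst1 M hM; omega⟩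
    rw [hk, Nat.add_sub_cancel]; ring
  obtain ⟨M, hM, hMne⟩ := Finset.exists_ne_zero_of_sum_ne_zero (s := X) (f := fun M => st M - 1)
    (by rw [hSg]; omega)
  obtain ⟨hM1, hM2⟩ := hO M hM
  have hsplit := Finset.sum_sdiff (f := fun N => st N - 1) (Finset.filter_subset (· ∈ orbit L M) X)
  rw [hSg] at hsplit
  by_cases hrest : ∑ N ∈ X \ O M, (st N - 1) = 0
  swap
  · obtain ⟨N, hN, hNne⟩ := Finset.exists_ne_zero_of_sum_ne_zero hrest
    obtain ⟨hNX, hNM⟩ := Finset.mem_sdiff.1 hN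
    have hsub : O N ⊆ X \ O M := fun z hz => by
      refine Finset.mem_sdiff.2 ⟨(Finset.mem_filter.1 hz).1, fun hzM => hNM ?_⟩
      refine Finset.mem_filter.2 ⟨hNX, ?_⟩
      rw [← orbit_eq_iff.2 (Finset.mem_filter.1 hzM).2, orbit_eq_iff.2 (Finset.mem_filter.1 hz).2]
      exact mem_orbit_self N
    have h1 := Finset.sum_le_sum_of_subset (f := fun N => st N - 1) hsub
    obtain ⟨hN1, hN2⟩ := hO N hNX
    have hb1 : 2 * (O M).card ≤ (q + 1) * (s * d) := by
      rw [← hM1, mul_comm 2]; exact Nat.mul_le_mul_left _ (by omega)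
    have hb2 : 2 * (O N).card ≤ (q + 1) * (s * d) := by
      rw [← hN1, mul_comm 2]; exact Nat.mul_le_mul_left _ (by omega)
    exfalso
    simp only [O] at *
    omega
  have ho : (O M).card + 2 * q = (q + 1) * s := by
    simp only [O] at *
    omega
  -- the stabiliser order divides `q + 1`
  have hMX := Finset.mem_filter.1 hM
  have hay : hm q M.rep y = 0 := mem_lw.1 hMX.1
  obtain ⟨b, hli, hb⟩ := third hF h (a := M.rep) hMX.2 hay
  have eig : ∀ c : ↥(L ⊓ stabilizer (S 3 F q) M),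
      mat (c : S 3 F q) *ᵥ M.rep =
        (hm q (mat (c : S 3 F q) *ᵥ M.rep) M.rep / hm q M.rep M.rep) • M.rep := fun c => by
    obtain ⟨a, -, ha⟩ := (fix_line_iff _ M).1 c.2.2
    rw [ha, hm_smul_left', mul_div_assoc, div_self (show hm q M.rep M.rep ≠ 0 from hMX.2), mul_one]
  let χ : ↥(L ⊓ stabilizer (S 3 F q) M) →* F :=
    { toFun := fun c => hm q (mat (c : S 3 F q) *ᵥ M.rep) M.rep / hm q M.rep M.rep
      map_one' := by simp [mat_one, div_self (show hm q M.rep M.rep ≠ 0 from hMX.2)]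
      map_mul' := fun c c' => by
        show hm q (mat ((c : S 3 F q) * (c' : S 3 F q)) *ᵥ M.rep) M.rep / _ = _
        conv_lhs => rw [mat_mul, ← mulVec_mulVec, eig c', mulVec_smul, hm_smul_left', mul_div_assoc,
          mul_comm] }
  have hχeig : ∀ c : ↥(L ⊓ stabilizer (S 3 F q) M), mat (c : S 3 F q) *ᵥ M.rep = χ c • M.rep := eig
  have hinj : Function.Injective χ.toHomUnits := by
    refine (injective_iff_map_eq_one _).2 fun c hc => ?_
    have hc1 : χ c = 1 := congrArg Units.val hc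
    have h1 : mat (c : S 3 F q) *ᵥ M.rep = (1 : F) • M.rep := by rw [hχeig c, hc1]
    have h2 : mat (c : S 3 F q) *ᵥ y = (1 : F) • y := by rw [one_smul]; exact c.2.1.2
    obtain ⟨ν, hν, hprod⟩ := hb _ 1 1 one_ne_zero one_ne_zero h1 h2
    rw [one_mul, mul_one] at hprod
    refine Subtype.ext ((eigen3 hli (s := (c : S 3 F q)) (d := ![1, ν, 1]) fun i => ?_).2 fun i => ?_)
    · fin_cases i <;> simp [h1, h2, hν]
    · fin_cases i <;> simp [hprod]
  have hdvd : st M ∣ q + 1 := by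
    show Nat.card _ ∣ _
    rw [Nat.card_congr (MonoidHom.ofInjective hinj).toEquiv, ← Herm.card_norm_one hF]
    refine Subgroup.card_dvd_of_le fun u hu => ?_
    obtain ⟨c, rfl⟩ := hu
    refine Units.ext ?_
    show χ c ^ (q + 1) = 1
    have h1 := iso (c : S 3 F q) M.rep M.rep
    rw [hχeig c, hm_smul_left', hm_smul_right, ← mul_assoc, ← pow_succ'] at h1
    exact (mul_eq_right₀ (show hm q M.rep M.rep ≠ 0 from hMX.2)).1 h1
  obtain ⟨k, hk⟩ := hdvd
  have hok : (O M).card = k * (s * d) := by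
    refine Nat.eq_of_mul_eq_mul_right (show 0 < st M from hst1 M hM) ?_
    rw [hM1, hk]; ring
  have hk1 : k = 1 := by
    have k1 : k ∣ q + 1 := ⟨st M, by rw [hk]; ring⟩
    have k2 : k ∣ 2 * q := (Nat.dvd_add_right ⟨s * d, hok⟩).1 (ho ▸ k1.mul_right s)
    have k3 : k ∣ 2 * (q + 1) - 2 * q := Nat.dvd_sub (k1.mul_left 2) k2
    rw [show 2 * (q + 1) - 2 * q = 2 by omega] at k3
    rcases (Nat.dvd_prime Nat.prime_two).1 k3 with hk' | hk'
    · exact hk'
    · rw [hk'] at k1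
      obtain ⟨r, hr⟩ := heven
      omega
  rw [hk1, mul_one] at hk
  rw [hk1, one_mul] at hok
  rw [hok] at ho
  have hs2 : 2 ≤ s := by omega
  have key : s = 2 ∨ s = q := by
    by_contra hne
    push Not at hne
    have h1 : s * (d + 1) ≤ s * s := Nat.mul_le_mul_left s hd
    have h3 : 3 ≤ s := by omega
    have h4 : s + 1 ≤ q := by omega
    have e1 : s * (d + 1) + 2 * q = (q + 1) * s + s := by rw [← ho]; ring
    have e2 : ((s : ℤ) - 2) * ((q : ℤ) - s) > 0 :=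
      mul_pos (by omega) (by omega)
    have e1' : (s : ℤ) * (d + 1) + 2 * q = ((q : ℤ) + 1) * s + s := by exact_mod_cast e1
    have h1' : (s : ℤ) * (d + 1) ≤ (s : ℤ) * s := by exact_mod_cast h1
    linarith
  rcases key with h2 | h2
  · refine Or.inr ⟨h2, M.rep, hay, M.rep_nonzero, hMX.2, ?_⟩
    rw [ln_rep, hk]
  · exact Or.inl h2

end Cfsg.Agent.Lib.MinIndexU3
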