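import Cfsg.Agent.Lib.MinIndexU3.Util
import Cfsg.Agent.Lib.Classical.UnitarySimple
import Cfsg.Agent.Lib.Classical.SUThreeInv
import Mathlib.GroupTheory.Perm.Cycle.Type

/-!
Small index with transvections: tools and odd characteristic.
-/

set_option autoImplicit false

namespace Cfsg.Agent.Lib.MinIndexU3

open Matrix MulAction Cfsg.Agent.Lib.AutPSU Cfsg.Agent.Lib.Classical

universe u

variable {F : Type u} [Field F] [Fintype F] {q : ℕ} (hF : Fintype.card F = q ^ 2)

local notation "V" => (Fin 3 → F)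

variable {e f y : Fin 3 → F} (h : Frame q e f y)

include hF h in
/-- The third vector of an orthogonal triple. -/
theorem third {a : V} (haa : hm q a a ≠ 0) (hay : hm q a y = 0) :
    ∃ b : V, LinearIndependent F ![a, b, y] ∧
      ∀ (c : S 3 F q) (β μ : F), β ≠ 0 → μ ≠ 0 → mat c *ᵥ a = β • a → mat c *ᵥ y = μ • y →
        ∃ ν : F, mat c *ᵥ b = ν • b ∧ β * ν * μ = 1 := by
  obtain ⟨b, hb0, hb⟩ := exists_perp_aux hF h.P ![y, a] (by omega)
  have hby : hm q b y = 0 := hb 0
  have hba : hm q b a = 0 := hb 1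
  have hli : LinearIndependent F ![a, b, y] := by
    refine Fintype.linearIndependent_iff.2 fun c hc => ?_
    simp only [Fin.sum_univ_three, Matrix.cons_val_zero, Matrix.cons_val_one, Matrix.cons_val_two,
      Matrix.tail_cons, Matrix.head_cons] at hc
    have h2 := congrArg (fun z => hm q z y) hc
    have h0 := congrArg (fun z => hm q z a) hc
    simp [hm_add_left, hm_smul_left', hay, hby, h.N, hm_zero_left] at h2
    simp [hm_add_left, hm_smul_left', hba, hm_comm_zero hF hay, hm_zero_left] at h0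
    have h0' : c 0 = 0 := h0.resolve_right haa
    rw [h2, h0', zero_smul, zero_smul, zero_add, add_zero, smul_eq_zero] at hc
    intro i
    fin_cases i
    exacts [h0', hc.resolve_right hb0, h2]
  refine ⟨b, hli, fun c β μ hβ hμ hca hcy => ?_⟩
  have e1 : hm q (mat c *ᵥ b) y = 0 := by
    have := iso c b y
    rw [hcy, hm_smul_right, hby] at this
    exact (mul_eq_zero.1 this).resolve_left (pow_ne_zero _ hμ)
  have e2 : hm q (mat c *ᵥ b) a = 0 := by
    have := iso c b a
    rw [hca, hm_smul_right, hba] at this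
    exact (mul_eq_zero.1 this).resolve_left (pow_ne_zero _ hβ)
  let bs := basisOfLinearIndependentOfCardEqFinrank hli (by simp)
  have hs := bs.sum_repr (mat c *ᵥ b)
  simp only [bs, coe_basisOfLinearIndependentOfCardEqFinrank, Fin.sum_univ_three,
    Matrix.cons_val_zero, Matrix.cons_val_one, Matrix.cons_val_two, Matrix.tail_cons,
    Matrix.head_cons] at hs
  generalize (basisOfLinearIndependentOfCardEqFinrank hli _).repr (mat c *ᵥ b) = d at hs
  have g2 := congrArg (fun z => hm q z y) hs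
  have g0 := congrArg (fun z => hm q z a) hs
  simp [hm_add_left, hm_smul_left', hay, hby, h.N, e1] at g2
  simp [hm_add_left, hm_smul_left', hba, hm_comm_zero hF hay, e2] at g0
  rw [g0.resolve_right haa, g2, zero_smul, zero_smul, zero_add, add_zero] at hs
  refine ⟨d 1, hs.symm, (eigen3 hli (s := c) (d := ![β, d 1, μ]) fun i => ?_).1⟩
  fin_cases i <;> simp [hca, hcy, hs]

variable (H : Subgroup (S 3 F q))

omit [Fintype F] in
theorem map_pr_ne_top (hZ : Subgroup.center (S 3 F q) ≤ H) (hH : H ≠ ⊤) : H.map pr ≠ ⊤ := by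
  intro h0
  refine hH ?_
  rw [← Subgroup.comap_map_eq_self (show (pr : S 3 F q →* P 3 F q).ker ≤ H by
    rw [QuotientGroup.ker_mk']; exact hZ), h0, Subgroup.comap_top]

include hF in
/-- A subgroup containing a non-central normal subgroup is everything. -/
theorem eq_top_of_normal (hq : 3 ≤ q) (hZ : Subgroup.center (S 3 F q) ≤ H) (hH : H ≠ ⊤)
    (N : Subgroup (S 3 F q)) [hN : N.Normal] (hle : N ≤ H) : N ≤ Subgroup.center (S 3 F q) := by
  haveI := UnitarySimple.isSimpleGroup_PSU hF (n := 3) le_rfl (by omega)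
  haveI : (N.map pr).Normal := hN.map _ pr_surjective
  rcases IsSimpleGroup.eq_bot_or_eq_top_of_normal (N.map (pr : S 3 F q →* P 3 F q)) inferInstance
    with h0 | h0
  · rw [Subgroup.map_eq_bot_iff, QuotientGroup.ker_mk'] at h0
    exact h0
  · exact absurd (top_le_iff.1 (h0 ▸ Subgroup.map_mono hle)) (map_pr_ne_top H hZ hH)

variable (hidx : H.index ≤ q ^ 3)
include hidx

include hF in
/-- The fixer of a unit vector is transitive on the isotropic points orthogonal to it. -/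
theorem plane_trans {e₀ : V} (he₀ : Valid q e₀) (hB : H ⊓ Tsub q e₀ ≠ ⊥) {w : V}
    (hw : hm q w w = 1) : ∀ L, L ∈ lw q w → Iso q L → ∀ L', L' ∈ lw q w → Iso q L' →
      ∃ g ∈ H ⊓ Fix q w, g • L = L' := by
  obtain ⟨p, m, hp, -, hqp, -⟩ := prime_pow hF
  haveI := Fact.mk hp
  intro L hL hi L' hL' hi'
  refine transitive_of_semiregular (p := p) (H ⊓ Fix q w)
    {M : Line F | M ∈ lw q w ∧ Iso q M} (fun g hg M hM => ⟨?_, ?_⟩) (fun M hM => ?_) L ⟨hL, hi⟩ L'
    ⟨hL', hi'⟩
  · rw [mem_lw]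
    exact (perp_smul hF g one_ne_zero (by rw [one_smul]; exact hg.2) M).2 (mem_lw.1 hM.1)
  · exact (iso_smul hF g M).2 hM.2
  have hv : Valid q M.rep := ⟨M.rep_nonzero, hM.2⟩
  refine ⟨H ⊓ Tsub q M.rep, fun g hg => ⟨hg.1, Tsub_le_Fix (hm_comm_zero hF (mem_lw.1 hM.1)) hg.2⟩,
    (pgroup_fix hF hv hqp).to_le (inf_le_right.trans (Tsub_le_Fix hv.2)),
    fun g hg => (fix_line_iff g M).2 ⟨1, one_ne_zero, by rw [one_smul]; exact hg.2 _ hv.2⟩,
    fun M' hM' hfix => ?_⟩
  have hne : H ⊓ Tsub q M.rep ≠ ⊥ := fun h0 => hB (Subgroup.eq_bot_of_card_eq _ (by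
    rw [card_Tsub_inf hF H hidx he₀ hv, h0, Subgroup.card_bot]))
  obtain ⟨⟨g, hg⟩, hg1'⟩ := Subgroup.ne_bot_iff_exists_ne_one.1 hne
  rw [fix_unique hF hv (Tsub_le_Fix hv.2 hg.2) (fun h0 => hg1' (Subtype.ext h0)) hM'.2 (hfix g hg),
    ln_rep]

include hF in
/-- The order of the fixer of a unit vector. -/
theorem card_plane {e₀ : V} (he₀ : Valid q e₀) (hB : H ⊓ Tsub q e₀ ≠ ⊥) {v g w : V}
    (hfr : Frame q v g w) {L : Line F} (hL : L ∈ lw q w) (hi : Iso q L) :
    Nat.card ↥(H ⊓ Fix q w) = (q + 1) * Nat.card ↥(H ⊓ Fix q w ⊓ stabilizer (S 3 F q) L) := by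
  classical
  rw [← card_orbit_mul_stab (H ⊓ Fix q w) L]
  congr 1
  rw [← card_lw_iso hF hfr, ← Set.ncard_coe_finset]
  congr 1
  ext M
  simp only [Finset.coe_filter, Set.mem_setOf_eq]
  constructor
  · rintro ⟨k, rfl⟩
    exact ⟨mem_lw.2 ((perp_smul hF _ one_ne_zero (by rw [one_smul]; exact k.2.2) L).2 (mem_lw.1 hL)),
      (iso_smul hF _ L).2 hi⟩
  · rintro ⟨hM, hMi⟩
    obtain ⟨k, hk, hk'⟩ := plane_trans hF H hidx he₀ hB hfr.N L hL hi M hM hMi
    exact ⟨⟨k, hk⟩, hk'⟩

include hF in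
/-- No such subgroup in odd characteristic. -/
theorem caseB_odd (hq : 3 ≤ q) (hodd : Odd q) (hZ : Subgroup.center (S 3 F q) ≤ H) (hH : H ≠ ⊤)
    {e₀ : V} (he₀ : Valid q e₀) (hB : H ⊓ Tsub q e₀ ≠ ⊥) : False := by
  haveI : Fact (Nat.Prime 2) := ⟨Nat.prime_two⟩
  have hmem : ∀ u : SUThree.U F q, SUThree.involu hF u ∈ H := by
    intro u
    obtain ⟨v, g, hfr⟩ := exists_frame_unit hF (w := (u : V)) u.2
    have hcard := card_plane hF H hidx he₀ hB hfr (mem_lw.2 (perp_e hF hfr))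
      ((iso_ln hF _).2 hfr.P.ee)
    have hev : Even (Nat.card ↥(H ⊓ Fix q (u : V))) := by
      rw [hcard]; exact (hodd.add_odd odd_one).mul_right _
    obtain ⟨x, hx⟩ := exists_prime_orderOf_dvd_card' (G := ↥(H ⊓ Fix q (u : V))) 2 hev.two_dvd
    have hx1 : (x : S 3 F q) ≠ 1 := fun h0 => by
      rw [show x = 1 from Subtype.ext h0, orderOf_one] at hx
      omega
    have hx2 : (x : S 3 F q) * x = 1 := by
      rw [← Subgroup.coe_mul, ← sq, ← hx, pow_orderOf_eq_one, Subgroup.coe_one]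
    obtain ⟨u', hu'⟩ := SUThree.exists_inv hF hodd hx1 hx2
    have h1 : mat (x : S 3 F q) *ᵥ (u : V) = (2 * hm q (u : V) (u' : V)) • (u' : V) - (u : V) := by
      have h1 := SUThree.inv_apply hF u' (u : V)
      rw [hu'] at h1
      exact h1
    rw [mem_Fix.1 x.2.2] at h1
    have h2' : (2 : F) ≠ 0 := SUThree.two_ne_zero' hF hodd
    have h2 : (u : V) = hm q (u : V) (u' : V) • (u' : V) := by
      have h3 : (2 : F) • ((u : V) - hm q (u : V) (u' : V) • (u' : V)) = 0 := by
        linear_combination (norm := module) h1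
      exact sub_eq_zero.1 ((smul_eq_zero.1 h3).resolve_left h2')
    have h4 : hm q (u : V) (u' : V) ^ (q + 1) = 1 := by
      have h5 := SUThree.norm_smul hF (hm q (u : V) (u' : V)) (u' : V)
      rw [← h2, u.2, u'.2, mul_one] at h5
      exact h5.symm
    rw [show SUThree.involu hF u = SUThree.involu hF u' from
      ((SUThree.inv_eq_iff hF hodd u' u).2 ⟨_, h4, h2⟩).symm, hu']
    exact x.2.1
  let N := Subgroup.normalClosure (Set.range (SUThree.involu hF : SUThree.U F q → S 3 F q))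
  have hle : N ≤ H := by
    refine (Subgroup.closure_le H).2 fun x hx => ?_
    obtain ⟨_, ⟨u, rfl⟩, hconj⟩ := Group.mem_conjugatesOfSet_iff.1 hx
    obtain ⟨k, hk⟩ := isConj_iff.1 hconj
    rw [← hk, SUThree.conj_inv hF k u]
    exact hmem _
  have hcen := eq_top_of_normal hF H hq hZ hH N hle
  obtain ⟨e', f', HP⟩ := exists_pair hF (n := 3) (by omega)
  obtain ⟨y', hy', hy1⟩ := exists_W_unit hF HP le_rfl
  obtain ⟨a, ha⟩ := Herm.scalar_of_mem_center_SU hF (by omega)
    (hcen (Subgroup.subset_normalClosure ⟨⟨y', hy1⟩, rfl⟩))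
  have ha' : ∀ z, mat (SUThree.involu hF ⟨y', hy1⟩) *ᵥ z = a • z := fun z => by
    show ((SUThree.involu hF ⟨y', hy1⟩ : S 3 F q) : Matrix.SpecialLinearGroup (Fin 3) F).1 *ᵥ z = _
    rw [ha, smul_mulVec, one_mulVec]
  have k1 := SUThree.inv_self hF (⟨y', hy1⟩ : SUThree.U F q)
  have k2 := SUThree.inv_apply hF (⟨y', hy1⟩ : SUThree.U F q) e'
  change mat _ *ᵥ y' = y' at k1
  change mat _ *ᵥ e' = (2 * hm q e' y') • y' - e' at k2
  rw [ha'] at k1 k2
  rw [(hy'.swap hF).1, mul_zero, zero_smul, zero_sub] at k2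
  have hy0 : y' ≠ 0 := fun h0 => by rw [h0, hm_zero_left] at hy1; exact zero_ne_one hy1
  have a1 : a = 1 := smul_left_injective F hy0 (k1.trans (one_smul F y').symm)
  rw [a1, one_smul] at k2
  have h3 : (2 : F) • e' = 0 := by linear_combination (norm := module) k2
  exact HP.e_ne ((smul_eq_zero.1 h3).resolve_left (SUThree.two_ne_zero' hF hodd))

end Cfsg.Agent.Lib.MinIndexU3
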