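import Cfsg.Agent.Lib.AutPSU.Pair
import Mathlib.FieldTheory.IsAlgClosed.AlgebraicClosure
import Mathlib.FieldTheory.Finite.Basic

/-!
Facts on a field with `q ^ 2` elements: trace-zero scalars, roots of unity, and roots of quadratics
over the fixed field.
-/

set_option autoImplicit false

namespace Cfsg.Agent.Lib.MinIndexU3

open Polynomial Cfsg.Agent.Lib.AutPSU Cfsg.Agent.Lib.Classical

universe u

variable {F : Type u} [Field F] [Fintype F] {q : ℕ} (hF : Fintype.card F = q ^ 2)

include hF in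
theorem prime_pow : ∃ p m : ℕ, p.Prime ∧ 0 < m ∧ q = p ^ m ∧ CharP F p := by
  obtain ⟨p, hp⟩ := CharP.exists F
  obtain ⟨n, hp', hn⟩ := FiniteField.card F p
  have hq := Herm.two_le_q hF
  have hdvd : q ∣ p ^ (n : ℕ) := by rw [← hn, hF]; exact dvd_pow_self q (by norm_num)
  obtain ⟨m, -, hm⟩ := (Nat.dvd_prime_pow hp').1 hdvd
  refine ⟨p, m, hp', Nat.pos_of_ne_zero fun h => ?_, hm, hp⟩
  rw [h, pow_zero] at hm
  omega

include hF in
theorem cast_q : (q : F) = 0 := by
  obtain ⟨p, m, -, hm, hq, hp⟩ := prime_pow hF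
  haveI := hp
  rw [hq, Nat.cast_pow, CharP.cast_eq_zero F p, zero_pow hm.ne']

include hF in
theorem two_eq_zero (he : Even q) : (2 : F) = 0 := by
  obtain ⟨p, m, hpp, -, hq, hp⟩ := prime_pow hF
  haveI := hp
  have : p = 2 := by
    refine ((Nat.prime_dvd_prime_iff_eq Nat.prime_two hpp).1 ?_).symm
    exact Nat.prime_two.dvd_of_dvd_pow (hq ▸ he.two_dvd)
  subst this
  exact_mod_cast CharP.cast_eq_zero F 2

include hF in
theorem card_units' : Nat.card Fˣ = q ^ 2 - 1 := by
  rw [Nat.card_units, Nat.card_eq_fintype_card, hF]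

include hF in
theorem card_roots_one {g : ℕ} (hg : g ∣ q ^ 2 - 1) : Nat.card {a : F // a ^ g = 1} = g := by
  have hq := Herm.two_le_q hF
  have h4 : 4 ≤ q ^ 2 := by nlinarith
  have hg0 : g ≠ 0 := fun h => by rw [h, zero_dvd_iff] at hg; omega
  have e : (powMonoidHom g : Fˣ →* Fˣ).ker ≃ {a : F // a ^ g = 1} :=
    Equiv.ofBijective (fun u => ⟨((u : Fˣ) : F), by
        have h : (u : Fˣ) ^ g = 1 := u.2
        rw [← Units.val_pow_eq_pow_val, h, Units.val_one]⟩)
      ⟨fun a b h => Subtype.ext (Units.ext (congrArg Subtype.val h :)), fun ⟨a, ha⟩ =>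
        ⟨⟨Units.mk0 a (fun h => by rw [h, zero_pow hg0] at ha; exact zero_ne_one ha),
          Units.ext (by simpa using ha)⟩, rfl⟩⟩
  rw [← Nat.card_congr e, IsCyclic.card_powMonoidHom_ker, card_units' hF, Nat.gcd_eq_right hg]

include hF in
theorem exists_order {g : ℕ} (hg : g ∣ q ^ 2 - 1) : ∃ a : F, orderOf a = g := by
  obtain ⟨u, hu⟩ := IsCyclic.exists_generator (α := Fˣ)
  have ho : orderOf u = q ^ 2 - 1 := by
    rw [orderOf_eq_card_of_forall_mem_zpowers hu, card_units' hF]
  refine ⟨((u ^ ((q ^ 2 - 1) / g) : Fˣ) : F), ?_⟩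
  rw [orderOf_units]
  have hq := Herm.two_le_q hF
  have h4 : 4 ≤ q ^ 2 := by nlinarith
  have hg0 : g ≠ 0 := fun h => by rw [h, zero_dvd_iff] at hg; omega
  rw [orderOf_pow' u (Nat.div_ne_zero_iff.2 ⟨hg0, Nat.le_of_dvd (by omega) hg⟩), ho,
    Nat.gcd_eq_right (Nat.div_dvd_of_dvd hg), Nat.div_div_self hg (by omega)]

include hF in
theorem pow_sq_sub_one {a : F} (ha : a ≠ 0) : a ^ (q ^ 2 - 1) = 1 := by
  rw [← hF]; exact FiniteField.pow_card_sub_one_eq_one a ha

include hF in
theorem card_skew : Nat.card {c : F // Skew q c} = q := by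
  obtain ⟨κ, hκ0, hκ⟩ := exists_skew_ne_zero hF
  have hκq : κ ^ q = -κ := by unfold Skew at hκ; linear_combination hκ
  rw [← Nat.card_congr (Equiv.subtypeEquiv (Equiv.mulLeft₀ κ hκ0)
    (p := fun s : F => s ^ q = s) (q := fun c => Skew q c) fun s => ?_), Herm.card_fixed hF]
  change _ ↔ κ * s + (κ * s) ^ q = 0
  rw [mul_pow, hκq]
  constructor
  · intro h; rw [h]; ring
  · intro h
    have : κ * (s - s ^ q) = 0 := by linear_combination h
    exact (sub_eq_zero.1 ((mul_eq_zero.1 this).resolve_left hκ0)).symm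

include hF in
theorem card_trace {b : F} (hb : b ^ q = b) : Nat.card {c : F // c + c ^ q = b} = q := by
  obtain ⟨c₀, hc₀⟩ := exists_trace hF hb
  rw [← Nat.card_congr (Equiv.subtypeEquiv (Equiv.addRight c₀)
    (p := fun c : F => Skew q c) (q := fun c => c + c ^ q = b) fun c => ?_), card_skew hF]
  show c + c ^ q = 0 ↔ c + c₀ + (c + c₀) ^ q = b
  rw [Herm.conj_add hF]
  constructor
  · intro h; linear_combination h + hc₀
  · intro h; linear_combination h - hc₀

include hF in
/-- A quadratic over the fixed field has a root. -/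
theorem exists_root_quad {u v : F} (hu : u ^ q = u) (hv : v ^ q = v) :
    ∃ x : F, x * x + u * x + v = 0 := by
  classical
  obtain ⟨p, m, hpp, -, hqp, hp⟩ := prime_pow hF
  haveI := Fact.mk hpp
  haveI := hp
  let K := AlgebraicClosure F
  let ι : F →+* K := algebraMap F K
  haveI : CharP K p := charP_of_injective_ringHom ι.injective p
  have hadd : ∀ a b : K, (a + b) ^ q = a ^ q + b ^ q := fun a b => by
    rw [hqp]; exact add_pow_char_pow a b p m
  have hdeg : ((Polynomial.X : Polynomial K) ^ 2 + C (ι u) * Polynomial.X + C (ι v)).degree ≠ 0 := by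
    have : ((Polynomial.X : Polynomial K) ^ 2 + C (ι u) * Polynomial.X + C (ι v)).natDegree = 2 := by compute_degree!
    intro h
    rw [natDegree_eq_zero_iff_degree_le_zero.2 h.le] at this
    omega
  obtain ⟨α, hα⟩ := IsAlgClosed.exists_root _ hdeg
  have hα' : α * α + ι u * α + ι v = 0 := by
    simpa [IsRoot, sq] using hα
  have hu' : (ι u) ^ q = ι u := by rw [← map_pow, hu]
  have hv' : (ι v) ^ q = ι v := by rw [← map_pow, hv]
  have hq0 : q ≠ 0 := fun h => by have := Herm.two_le_q hF; omega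
  have h1 : α ^ q * α ^ q + ι u * α ^ q + ι v = 0 := by
    have := congrArg (fun z : K => z ^ q) hα'
    simpa [hadd, mul_pow, hu', hv', hq0] using this
  have h2 : (α ^ q - α) * (α ^ q + α + ι u) = 0 := by linear_combination h1 - hα'
  have h3 : α ^ (q ^ 2) = α := by
    rw [sq, pow_mul]
    rcases mul_eq_zero.1 h2 with h | h
    · rw [sub_eq_zero.1 h, sub_eq_zero.1 h]
    · have e : α ^ q + (α + ι u) = 0 := by linear_combination h
      have := congrArg (fun z : K => z ^ q) e
      simp [hadd, hu', hq0] at this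
      linear_combination this - e
  have hq := Herm.two_le_q hF
  have hq2 : 1 < q ^ 2 := by nlinarith
  set P : Polynomial K := Polynomial.X ^ (q ^ 2) - Polynomial.X
  have hP0 : P ≠ 0 := FiniteField.X_pow_card_sub_X_ne_zero K hq2
  have hsub : (Finset.univ : Finset F).image ι ⊆ P.roots.toFinset := by
    intro z hz
    obtain ⟨x, -, rfl⟩ := Finset.mem_image.1 hz
    rw [Multiset.mem_toFinset, mem_roots hP0]
    simp [P, IsRoot, ← map_pow, ← hF, FiniteField.pow_card]
  have hcard : P.roots.toFinset.card ≤ ((Finset.univ : Finset F).image ι).card := by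
    rw [Finset.card_image_of_injective _ ι.injective, Finset.card_univ, hF]
    exact (P.roots.toFinset_card_le.trans (card_roots' P)).trans
      (FiniteField.X_pow_card_sub_X_natDegree_eq K hq2).le
  have hmem : α ∈ P.roots.toFinset := by
    rw [Multiset.mem_toFinset, mem_roots hP0]
    simp [P, IsRoot, h3]
  rw [← Finset.eq_of_subset_of_card_le hsub hcard] at hmem
  obtain ⟨x, -, rfl⟩ := Finset.mem_image.1 hmem
  exact ⟨x, ι.injective (by simpa using hα')⟩

end Cfsg.Agent.Lib.MinIndexU3
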