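import Cfsg.Agent.Lib.AutPSU.Levi
import Cfsg.Agent.Lib.AutPSU.Space
import Cfsg.Agent.Lib.MinIndexU3.Field

/-!
Frames `e, f, y` of the three-dimensional Hermitian space, and the stabiliser of a point.
-/

set_option autoImplicit false

namespace Cfsg.Agent.Lib.MinIndexU3

open Matrix Cfsg.Agent.Lib.AutPSU Cfsg.Agent.Lib.Classical

universe u

variable {F : Type u} [Field F] {q : ℕ}

local notation "V" => (Fin 3 → F)

/-- A hyperbolic pair and a unit vector orthogonal to it. -/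
structure Frame (q : ℕ) (e f y : Fin 3 → F) : Prop where
  P : Pair q e f
  W : InW q e f y
  N : hm q y y = 1

/-- The elements fixing a vector. -/
def Fix (q : ℕ) (v : Fin 3 → F) : Subgroup (S 3 F q) where
  carrier := {s | mat s *ᵥ v = v}
  one_mem' := by simp [mat_one]
  mul_mem' := fun {a b} ha hb => by
    simp only [Set.mem_setOf_eq] at *
    rw [mat_mul, ← mulVec_mulVec, hb, ha]
  inv_mem' := fun {a} ha => by
    simp only [Set.mem_setOf_eq] at *
    conv_lhs => rw [← ha]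
    exact mulVec_inv_cancel a v

theorem mem_Fix {v : Fin 3 → F} {s : S 3 F q} : s ∈ Fix q v ↔ mat s *ᵥ v = v := Iff.rfl

theorem Fix_smul {a : F} (ha : a ≠ 0) (v : Fin 3 → F) : Fix q (a • v) = Fix q v := by
  ext s
  simp only [mem_Fix, mulVec_smul]
  exact (smul_right_injective (Fin 3 → F) ha).eq_iff

theorem conj_mem_Fix (g : S 3 F q) {s : S 3 F q} {v : Fin 3 → F} (hs : s ∈ Fix q v) :
    g * s * g⁻¹ ∈ Fix q (mat g *ᵥ v) := by
  rw [mem_Fix, mat_mul, mat_mul, ← mulVec_mulVec, ← mulVec_mulVec, mulVec_inv_cancel, hs]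

/-- The elements fixing every vector orthogonal to `v`. -/
def Tsub (q : ℕ) (v : Fin 3 → F) : Subgroup (S 3 F q) where
  carrier := {s | ∀ z, hm q z v = 0 → mat s *ᵥ z = z}
  one_mem' := by simp [mat_one]
  mul_mem' := fun {a b} ha hb z hz => by rw [mat_mul, ← mulVec_mulVec, hb z hz, ha z hz]
  inv_mem' := fun {a} ha z hz => by
    conv_lhs => rw [← ha z hz]
    exact mulVec_inv_cancel a z

theorem Tsub_le_Fix {v w : Fin 3 → F} (h : hm q w v = 0) : Tsub q v ≤ Fix q w := fun _ hs => hs w h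

theorem Tsub_smul {a : F} (ha : a ≠ 0) (v : Fin 3 → F) : Tsub q (a • v) = Tsub q v := by
  ext s
  show (∀ z, _ → _) ↔ ∀ z, _ → _
  refine forall_congr' fun z => ?_
  rw [show hm q z (a • v) = a ^ q * hm q z v by
    simp [hm, Cfsg.hermForm, Finset.mul_sum, mul_pow, mul_left_comm]]
  simp [ha]

theorem conj_mem_Tsub (g : S 3 F q) {s : S 3 F q} {v : Fin 3 → F} (hs : s ∈ Tsub q v) :
    g * s * g⁻¹ ∈ Tsub q (mat g *ᵥ v) := fun z hz => by
  have e : mat g *ᵥ (mat g⁻¹ *ᵥ z) = z := by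
    rw [mulVec_mulVec, ← mat_mul, mul_inv_cancel, mat_one, one_mulVec]
  rw [mat_mul, mat_mul, ← mulVec_mulVec, ← mulVec_mulVec, hs _ (by rw [← iso g, e, hz]), e]

/-- A matrix of `SU₃` on three independent eigenvectors. -/
theorem eigen3 {s : S 3 F q} {b : Fin 3 → V} (hb : LinearIndependent F b) {d : Fin 3 → F}
    (h : ∀ i, mat s *ᵥ b i = d i • b i) : d 0 * d 1 * d 2 = 1 ∧ ((∀ i, d i = 1) → s = 1) := by
  classical
  let B : Matrix (Fin 3) (Fin 3) F := (Matrix.of b)ᵀ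
  have hB : IsUnit B := Matrix.linearIndependent_cols_iff_isUnit.1 hb
  have e : mat s * B = B * Matrix.diagonal d := by
    ext i j
    rw [mul_diagonal]
    have := congrFun (h j) i
    simpa [B, mulVec, dotProduct, mul_apply, mul_comm] using this
  refine ⟨?_, fun h1 => ?_⟩
  · have h2 := congrArg Matrix.det e
    rw [det_mul, det_mul, det_diagonal, (s : Matrix.SpecialLinearGroup (Fin 3) F).2, one_mul,
      Fin.prod_univ_three] at h2
    exact (mul_left_cancel₀ ((Matrix.isUnit_iff_isUnit_det B).1 hB).ne_zero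
      (h2.symm.trans (mul_one _).symm))
  · apply mat_ext
    rw [show d = fun _ => (1 : F) from funext h1, diagonal_one, mul_one] at e
    exact hB.mul_left_injective (e.trans (one_mul B).symm)

variable [Fintype F] (hF : Fintype.card F = q ^ 2)
variable {e f y : Fin 3 → F}

include hF in
theorem Frame.swap (h : Frame q e f y) : hm q e y = 0 ∧ hm q f y = 0 := h.W.swap hF

theorem Frame.y_ne (h : Frame q e f y) : y ≠ 0 := fun h0 => by
  have := h.N
  rw [h0, hm_zero_left] at this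
  exact zero_ne_one this

include hF in
theorem Frame.li (h : Frame q e f y) : LinearIndependent F ![e, f, y] := by
  refine Fintype.linearIndependent_iff.2 fun g hg => ?_
  simp only [Fin.sum_univ_three, Matrix.cons_val_zero, Matrix.cons_val_one, Matrix.cons_val_two,
    Matrix.tail_cons, Matrix.head_cons] at hg
  have h1 := congrArg (fun z => hm q z e) hg
  have h0 := congrArg (fun z => hm q z f) hg
  have h2 := congrArg (fun z => hm q z y) hg
  simp [hm_add_left, hm_smul_left', h.P.ee, h.P.fe, h.P.ff, h.P.ef, h.W.1, h.W.2, (h.swap hF).1,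
    (h.swap hF).2, h.N, hm_zero_left] at h0 h1 h2
  intro i
  fin_cases i <;> assumption

include hF in
theorem Frame.expand (h : Frame q e f y) (z : V) :
    z = hm q z f • e + hm q z e • f + hm q z y • y := by
  conv_lhs => rw [decomp (q := q) e f z]
  obtain ⟨a, ha⟩ := W_line hF h.P rfl h.W h.y_ne (proj_mem h.P z)
  have h2 := hm_proj hF h.W z
  rw [ha, hm_smul_left', h.N, mul_one] at h2
  rw [ha, h2]

include hF in
theorem Frame.form (h : Frame q e f y) (u v : V) : hm q u v =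
    hm q u f * hm q v e ^ q + hm q u e * hm q v f ^ q + hm q u y * hm q v y ^ q := by
  conv_lhs => rw [h.expand hF v]
  simp only [hm_add_right hF, hm_smul_right]
  ring

include hF in
theorem Frame.norm (h : Frame q e f y) (u : V) : hm q u u =
    hm q u f * hm q u e ^ q + hm q u e * hm q u f ^ q + hm q u y ^ (q + 1) := by
  rw [h.form hF, pow_succ']

include hF in
theorem Frame.ext (h : Frame q e f y) {s t : S 3 F q} (h1 : mat s *ᵥ e = mat t *ᵥ e)
    (h2 : mat s *ᵥ f = mat t *ᵥ f) (h3 : mat s *ᵥ y = mat t *ᵥ y) : s = t := by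
  apply vec_ext
  intro z
  rw [h.expand hF z]
  simp only [mulVec_add, mulVec_smul, h1, h2, h3]

include hF in
theorem Frame.vec_eq (h : Frame q e f y) {u v : V} (h1 : hm q u e = hm q v e)
    (h2 : hm q u f = hm q v f) (h3 : hm q u y = hm q v y) : u = v := by
  rw [h.expand hF u, h.expand hF v, h1, h2, h3]

include hF in
theorem exists_frame_pair (hP : Pair q e f) : ∃ y, Frame q e f y := by
  obtain ⟨y, hy, hy1⟩ := exists_W_unit hF hP le_rfl
  exact ⟨y, hP, hy, hy1⟩

include hF in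
theorem exists_frame {v : V} (hv : Valid q v) : ∃ f y, Frame q v f y := by
  obtain ⟨x, -, hx⟩ := exists_hm_one hF hv.1
  obtain ⟨a, b, hp⟩ := exists_partner hF hv.2 (z := x) (by rw [hx]; exact one_ne_zero)
  obtain ⟨y, hy⟩ := exists_frame_pair hF hp
  exact ⟨_, y, hy⟩

include hF in
theorem exists_frame_perp {v w : V} (hv : Valid q v) (hvw : hm q v w = 0) (hw : hm q w w = 1) :
    ∃ f, Frame q v f w := by
  obtain ⟨x, -, hx⟩ := exists_hm_one hF hv.1
  set z := x - hm q x w • w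
  have hz : hm q v z = 1 := by
    simp [z, hm_sub_right hF, hm_smul_right, hvw, hx]
  have hzw : hm q z w = 0 := by simp [z, hm_sub_left, hm_smul_left', hw]
  obtain ⟨a, b, hp⟩ := exists_partner hF hv.2 (z := z) (by rw [hz]; exact one_ne_zero)
  refine ⟨_, hp, ⟨hm_comm_zero hF hvw, hm_comm_zero hF ?_⟩, hw⟩
  simp [hm_add_left, hm_smul_left', hzw, hvw]

include hF in
theorem exists_frame_unit {w : V} (hw : hm q w w = 1) : ∃ e f, Frame q e f w := by
  obtain ⟨e₀, f₀, HP⟩ := exists_pair hF (n := 3) (by omega)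
  suffices ∃ v, Valid q v ∧ hm q v w = 0 by
    obtain ⟨v, hv, hvw⟩ := this
    obtain ⟨g, hg⟩ := exists_frame_perp hF hv hvw hw
    exact ⟨v, g, hg⟩
  obtain ⟨a, ha0, ha⟩ := exists_perp_aux hF HP ![w] (by omega)
  have haw : hm q a w = 0 := ha 0
  by_cases haa : hm q a a = 0
  · exact ⟨a, ⟨ha0, haa⟩, haw⟩
  obtain ⟨b, hb0, hb⟩ := exists_perp_aux hF HP ![w, a] (by omega)
  have hbw : hm q b w = 0 := hb 0
  have hba : hm q b a = 0 := hb 1
  by_cases hbb : hm q b b = 0
  · exact ⟨b, ⟨hb0, hbb⟩, hbw⟩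
  obtain ⟨t, -, ht⟩ := Herm.exists_norm hF (c := -(hm q a a) / hm q b b)
    (div_ne_zero (neg_ne_zero.2 haa) hbb)
    (by rw [div_pow, Herm.conj_neg hF, hm_self_fixed hF, hm_self_fixed hF])
  refine ⟨a + t • b, ⟨fun h0 => haa ?_, ?_⟩, by simp [hm_add_left, hm_smul_left', haw, hbw]⟩
  · have := congrArg (fun z => hm q z a) h0
    simpa [hm_add_left, hm_smul_left', hba, hm_zero_left] using this
  · simp only [hm_add_left, hm_add_right hF, hm_smul_left', hm_smul_right, hba, hm_comm_zero hF hba]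
    rw [pow_succ'] at ht
    field_simp at ht
    linear_combination ht

include hF in
/-- Distinct isotropic points are not orthogonal. -/
theorem Frame.perp_iso (h : Frame q e f y) {v : V} (hv : hm q v v = 0) (hve : hm q v e = 0) :
    v = hm q v f • e := by
  have h1 := h.norm hF v
  rw [hv, hve, Herm.conj_zero hF, mul_zero, zero_mul, zero_add, zero_add] at h1
  conv_lhs => rw [h.expand hF v, hve, (pow_eq_zero_iff (by omega)).1 h1.symm]
  simp

/-- The isotropic vector with coordinates `a`, `c`. -/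
def pv (e f y : Fin 3 → F) (a c : F) : Fin 3 → F := f + a • y + c • e

include hF in
theorem Frame.pv_coord (h : Frame q e f y) (a c : F) :
    hm q (pv e f y a c) e = 1 ∧ hm q (pv e f y a c) f = c ∧ hm q (pv e f y a c) y = a := by
  simp [pv, hm_add_left, hm_smul_left', h.P.ee, h.P.fe, h.P.ff, h.P.ef, h.W.1, h.W.2,
    (h.swap hF).1, (h.swap hF).2, h.N]

/-- The parameters of isotropic vectors. -/
def Par (q : ℕ) (a c : F) : Prop := c + c ^ q = -a ^ (q + 1)

include hF in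
theorem Frame.pv_iso (h : Frame q e f y) (a c : F) :
    hm q (pv e f y a c) (pv e f y a c) = 0 ↔ Par q a c := by
  obtain ⟨h1, h2, h3⟩ := h.pv_coord hF a c
  rw [h.norm hF, h1, h2, h3, one_pow, mul_one, one_mul]
  exact ⟨fun e => eq_neg_of_add_eq_zero_left e, fun e => by rw [e, neg_add_cancel]⟩

include hF in
theorem card_par : Nat.card {p : F × F // Par q p.1 p.2} = q ^ 3 := by
  rw [Nat.card_congr (Equiv.subtypeProdEquivSigmaSubtype fun a c => Par q a c), Nat.card_sigma,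
    Finset.sum_congr rfl (f := fun a : F => Nat.card {c : F // Par q a c}) (g := fun _ => q)
      fun a _ => card_trace hF (b := -a ^ (q + 1)) (by rw [Herm.conj_neg hF, Herm.norm_fixed hF]),
    Finset.sum_const, Finset.card_univ, hF, smul_eq_mul]
  ring

include hF in
theorem Par.cond (h : Frame q e f y) {a c : F} (hp : Par q a c) : Cond q (a • y) c := by
  rw [Cond, hm_smul_left', hm_smul_right, h.N, mul_one, ← pow_succ']
  exact hp

/-- The root element with coordinates. -/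
noncomputable def Uc (hF : Fintype.card F = q ^ 2) (e y : Fin 3 → F) (a c : F) : S 3 F q :=
  U hF e (a • y) c

variable (h : Frame q e f y)
include h

theorem Uc_e {a c : F} (hp : Par q a c) : mat (Uc hF e y a c) *ᵥ e = e :=
  U_apply_e hF h.P (h.W.smul a) (Par.cond hF h hp)

theorem Uc_f {a c : F} (hp : Par q a c) : mat (Uc hF e y a c) *ᵥ f = pv e f y a c :=
  U_apply_f hF h.P (h.W.smul a) (Par.cond hF h hp)

theorem Uc_y {a c : F} (hp : Par q a c) : mat (Uc hF e y a c) *ᵥ y = y - a ^ q • e := by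
  rw [Uc, U_apply_w hF h.P (h.W.smul a) (Par.cond hF h hp) h.W, hm_smul_right, h.N, mul_one]

omit h in
theorem Uc_zero : Uc hF e y (0 : F) = fun c => U hF e 0 c := by
  funext c; simp [Uc]

include hF in
theorem fix_e_eq {s : S 3 F q} (hs : s ∈ Fix q e) :
    ∃ a c, Par q a c ∧ s = Uc hF e y a c := by
  refine ⟨hm q (mat s *ᵥ f) y, hm q (mat s *ᵥ f) f, ?_⟩
  have he : hm q (mat s *ᵥ f) e = 1 := by
    conv_lhs => rw [← mem_Fix.1 hs]
    rw [iso, h.P.fe]
  have hsf : mat s *ᵥ f = pv e f y (hm q (mat s *ᵥ f) y) (hm q (mat s *ᵥ f) f) := by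
    obtain ⟨h1, h2, h3⟩ := h.pv_coord hF (hm q (mat s *ᵥ f) y) (hm q (mat s *ᵥ f) f)
    exact h.vec_eq hF (by rw [h1, he]) h2.symm h3.symm
  have hp : Par q (hm q (mat s *ᵥ f) y) (hm q (mat s *ᵥ f) f) := by
    rw [← h.pv_iso hF, ← hsf, iso, h.P.ff]
  refine ⟨hp, ?_⟩
  set u := Uc hF e y (hm q (mat s *ᵥ f) y) (hm q (mat s *ᵥ f) f) with hu
  have t1 : mat (u⁻¹ * s) *ᵥ e = e := by
    rw [mat_mul, ← mulVec_mulVec, mem_Fix.1 hs]
    exact inv_mem (show u ∈ Fix q e from Uc_e hF h hp)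
  have t2 : mat (u⁻¹ * s) *ᵥ f = f := by
    rw [mat_mul, ← mulVec_mulVec]
    conv_lhs => rw [hsf, ← Uc_f hF h hp]
    exact mulVec_inv_cancel u f
  set t := u⁻¹ * s
  have t3 : ∃ ν : F, mat t *ᵥ y = ν • y := by
    refine ⟨hm q (mat t *ᵥ y) y, ?_⟩
    have e1 : hm q (mat t *ᵥ y) e = 0 := by rw [← t1, iso, h.W.1]
    have e2 : hm q (mat t *ᵥ y) f = 0 := by rw [← t2, iso, h.W.2]
    conv_lhs => rw [h.expand hF (mat t *ᵥ y), e1, e2]
    simp
  obtain ⟨ν, hν⟩ := t3
  obtain ⟨hd, -⟩ := eigen3 (h.li hF) (d := ![1, 1, ν]) (s := t) (fun i => by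
    fin_cases i <;> simp [t1, t2, hν])
  simp at hd
  have : t = 1 := h.ext hF (by rw [t1, mat_one, one_mulVec]) (by rw [t2, mat_one, one_mulVec])
    (by rw [hν, hd, one_smul, mat_one, one_mulVec])
  exact (inv_mul_eq_one.1 this).symm

include hF in
theorem card_fix : Nat.card (Fix q e) = q ^ 3 := by
  rw [← card_par hF]
  refine (Nat.card_eq_of_bijective (fun p : {p : F × F // Par q p.1 p.2} =>
    (⟨Uc hF e y p.1.1 p.1.2, Uc_e hF h p.2⟩ : Fix q e)) ⟨fun p p' hh => ?_, fun s => ?_⟩).symm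
  · have hh' := congrArg (fun s : Fix q e => mat (s : S 3 F q) *ᵥ f) hh
    simp only [Uc_f hF h p.2, Uc_f hF h p'.2] at hh'
    have h2 := congrArg (fun z => hm q z f) hh'
    have h3 := congrArg (fun z => hm q z y) hh'
    simp only [(h.pv_coord hF p.1.1 p.1.2).2.1, (h.pv_coord hF p.1.1 p.1.2).2.2,
      (h.pv_coord hF p'.1.1 p'.1.2).2.1, (h.pv_coord hF p'.1.1 p'.1.2).2.2] at h2 h3
    exact Subtype.ext (Prod.ext h3 h2)
  · obtain ⟨a, c, hp, hs⟩ := fix_e_eq hF h s.2
    exact ⟨⟨(a, c), hp⟩, Subtype.ext hs.symm⟩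

include hF in
/-- The linear coordinate of a root element. -/
theorem alpha_mul {s t : S 3 F q} (hs : s ∈ Fix q e) (ht : t ∈ Fix q e) :
    hm q (mat (s * t) *ᵥ f) y = hm q (mat s *ᵥ f) y + hm q (mat t *ᵥ f) y := by
  obtain ⟨a, c, hp, rfl⟩ := fix_e_eq hF h hs
  obtain ⟨b, d, hp', rfl⟩ := fix_e_eq hF h ht
  rw [mat_mul, ← mulVec_mulVec, Uc_f hF h hp', Uc_f hF h hp]
  simp only [pv, mulVec_add, mulVec_smul, Uc_f hF h hp, Uc_y hF h hp, Uc_e hF h hp]
  simp [pv, hm_add_left, hm_sub_left, hm_smul_left', h.N, (h.swap hF).1, (h.swap hF).2]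

omit h in
theorem Tsub_le_fix_e (he : hm q e e = 0) : Tsub q e ≤ Fix q e := Tsub_le_Fix he

include hF in
theorem mem_Tsub_iff {s : S 3 F q} :
    s ∈ Tsub q e ↔ s ∈ Fix q e ∧ hm q (mat s *ᵥ f) y = 0 := by
  constructor
  · intro hs
    have he : s ∈ Fix q e := hs e h.P.ee
    refine ⟨he, ?_⟩
    obtain ⟨a, c, hp, rfl⟩ := fix_e_eq hF h he
    have := hs y h.W.1
    rw [Uc_y hF h hp, sub_eq_self, smul_eq_zero] at this
    rw [Uc_f hF h hp, (h.pv_coord hF a c).2.2]
    exact (pow_eq_zero_iff (by have := Herm.two_le_q hF; omega)).1 (this.resolve_right h.P.e_ne)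
  · rintro ⟨he, ha⟩ z hz
    obtain ⟨a, c, hp, rfl⟩ := fix_e_eq hF h he
    rw [Uc_f hF h hp, (h.pv_coord hF a c).2.2] at ha
    subst ha
    rw [h.expand hF z, hz]
    simp only [mulVec_add, mulVec_smul, Uc_e hF h hp, Uc_y hF h hp, zero_smul, mulVec_zero]
    rw [Herm.conj_zero hF, zero_smul, sub_zero]

theorem T_mem_Tsub {c : F} (hc : Skew q c) : T hF e c ∈ Tsub q e := fun z hz => by
  rw [T_mulVec hF h.P.ee hc, hz, mul_zero, zero_smul, add_zero]

theorem Tsub_eq_T {s : S 3 F q} (hs : s ∈ Tsub q e) : ∃ c, Skew q c ∧ s = T hF e c := by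
  obtain ⟨he, ha⟩ := (mem_Tsub_iff hF h).1 hs
  obtain ⟨a, c, hp, rfl⟩ := fix_e_eq hF h he
  rw [Uc_f hF h hp, (h.pv_coord hF a c).2.2] at ha
  subst ha
  have hc : Skew q c := by
    unfold Par at hp
    rw [zero_pow (Nat.succ_ne_zero q), neg_zero] at hp
    exact hp
  exact ⟨c, hc, by rw [← U_zero_eq_T hF h.P hc, Uc, zero_smul]⟩

include hF in
theorem card_Tsub : Nat.card (Tsub q e) = q := by
  refine ((Nat.card_eq_of_bijective (fun c : {c : F // Skew q c} =>
    (⟨T hF e c, T_mem_Tsub hF h c.2⟩ : Tsub q e)) ⟨fun c c' hh => Subtype.ext ?_, fun s => ?_⟩).symm).trans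
      (card_skew hF)
  · have := congrArg (fun s : Tsub q e => mat (s : S 3 F q) *ᵥ f) hh
    simp only [T_mulVec hF h.P.ee c.2, T_mulVec hF h.P.ee c'.2, h.P.fe, mul_one] at this
    exact smul_left_injective F h.P.e_ne (add_left_cancel this)
  · obtain ⟨c, hc, hs⟩ := Tsub_eq_T hF h s.2
    exact ⟨⟨c, hc⟩, Subtype.ext hs.symm⟩

include hF in
/-- An element fixing `e` and another isotropic point is trivial. -/
theorem eq_one_of_fix_two {s : S 3 F q} (hs : s ∈ Fix q e) {v : V} (hv : hm q v v = 0)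
    (hve : hm q v e ≠ 0) {a : F} (hsv : mat s *ᵥ v = a • v) : s = 1 := by
  set v' := (hm q v e)⁻¹ • v
  have h1 : hm q v' e = 1 := by rw [hm_smul_left', inv_mul_cancel₀ hve]
  have HP : Pair q e v' := ⟨h.P.ee, by rw [hm_smul_left', hm_smul_right, hv, mul_zero, mul_zero],
    by rw [hm_swap hF, h1, one_pow], h1⟩
  obtain ⟨y', h'⟩ := exists_frame_pair hF HP
  obtain ⟨b, c, hp, rfl⟩ := fix_e_eq hF h' hs
  have h2 : mat (Uc hF e y' b c) *ᵥ v' = a • v' := by
    rw [mulVec_smul, hsv, smul_comm]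
  have ha : a = 1 := by
    have := congrArg (fun z => hm q z e) h2
    simpa [Uc_f hF h' hp, (h'.pv_coord hF b c).1, hm_smul_left', h1] using this.symm
  rw [ha, one_smul, Uc_f hF h' hp] at h2
  have hb := congrArg (fun z => hm q z y') h2
  have hc := congrArg (fun z => hm q z v') h2
  simp only [(h'.pv_coord hF b c).2.2, (h'.pv_coord hF b c).2.1, (h'.swap hF).2, h'.P.ff] at hb hc
  subst hb; subst hc
  rw [Uc, zero_smul, U_zero_eq_T hF h'.P (Skew.zero hF), T_zero hF h'.P.ee]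

include hF in
/-- The shape of an element fixing the point of `e`. -/
theorem stab_shape {s : S 3 F q} {l : F} (hl : l ≠ 0) (hs : mat s *ᵥ e = l • e) :
    (∃ b : F, mat s *ᵥ y = (l ^ q * l⁻¹) • y + b • e) ∧
    (∃ a b : F, mat s *ᵥ f = (l ^ q)⁻¹ • f + a • y + b • e) := by
  obtain ⟨τ, hte, htf, hty⟩ := exists_torus_line hF h.P h.W h.N hl
  have hu : τ⁻¹ * s ∈ Fix q e := by
    rw [mem_Fix, mat_mul, ← mulVec_mulVec, hs, ← hte, mulVec_inv_cancel]
  obtain ⟨a, c, hp, hu'⟩ := fix_e_eq hF h hu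
  have hse : s = τ * Uc hF e y a c := by rw [← hu', mul_inv_cancel_left]
  subst hse
  refine ⟨⟨-a ^ q * l, ?_⟩, ⟨a * (l ^ q * l⁻¹), c * l, ?_⟩⟩
  · rw [mat_mul, ← mulVec_mulVec, Uc_y hF h hp, mulVec_sub, mulVec_smul, hte, hty]
    module
  · rw [mat_mul, ← mulVec_mulVec, Uc_f hF h hp, pv, mulVec_add, mulVec_add, mulVec_smul,
      mulVec_smul, hte, hty, htf]
    module

include hF in
theorem alpha_conj {s u : S 3 F q} {l : F} (hl : l ≠ 0) (hs : mat s *ᵥ e = l • e)
    (hu : u ∈ Fix q e) :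
    hm q (mat (s * u * s⁻¹) *ᵥ f) y = l ^ q * l ^ q * l⁻¹ * hm q (mat u *ᵥ f) y := by
  obtain ⟨⟨b₁, hy'⟩, ⟨a₂, b₂, hf'⟩⟩ := stab_shape hF h hl hs
  obtain ⟨a, c, hp, rfl⟩ := fix_e_eq hF h hu
  obtain ⟨⟨b₃, hy''⟩, ⟨a₄, b₄, hf''⟩⟩ := stab_shape hF h (inv_ne_zero hl)
    (mulVec_inv_of_fix s hl hs)
  have e1 : mat s *ᵥ (mat s⁻¹ *ᵥ f) = f := by
    rw [mulVec_mulVec, ← mat_mul, mul_inv_cancel, mat_one, one_mulVec]
  have e2 : mat (Uc hF e y a c) *ᵥ (mat s⁻¹ *ᵥ f) = mat s⁻¹ *ᵥ f +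
      ((l ^ q * a) • y + (l ^ q * c - a₄ * a ^ q) • e) := by
    rw [hf'']
    simp only [mulVec_add, mulVec_smul, Uc_f hF h hp, Uc_y hF h hp, Uc_e hF h hp, pv, inv_pow,
      inv_inv]
    module
  rw [mat_mul, mat_mul, ← mulVec_mulVec, ← mulVec_mulVec, e2, mulVec_add, e1, Uc_f hF h hp,
    (h.pv_coord hF a c).2.2]
  simp only [mulVec_add, mulVec_smul, hs, hy', hm_add_left, hm_smul_left', h.N, (h.swap hF).1,
    (h.swap hF).2]
  ring

theorem T_conj_stab {s : S 3 F q} {l : F} (hs : mat s *ᵥ e = l • e) {c : F} (hc : Skew q c) :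
    s * T hF e c * s⁻¹ = T hF e (c * (l * l ^ q)) := by
  rw [T_conj hF h.P.ee hc, hs, T_smul hF h.P.ee l hc]

end Cfsg.Agent.Lib.MinIndexU3
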