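import Cfsg.Agent.Lib.MinIndexU3.CaseA
import Cfsg.Agent.Lib.MinIndexU3.CaseBEight

/-!
The minimal index of a proper subgroup of `PSU₃(q)`.
-/

set_option autoImplicit false

namespace Cfsg.Agent.Lib.MinIndexU3

open Matrix MulAction Cfsg.Agent.Lib.AutPSU Cfsg.Agent.Lib.Classical

universe u

variable {F : Type u} [Field F] [Fintype F] {q : ℕ} (hF : Fintype.card F = q ^ 2)

include hF in
theorem core (hq : 3 ≤ q) (h5 : q ≠ 5) (H : Subgroup (S 3 F q))
    (hZ : Subgroup.center (S 3 F q) ≤ H) (hH : H ≠ ⊤) (hidx : H.index ≤ q ^ 3) : False := by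
  obtain ⟨e, f₀, HP⟩ := exists_pair hF (n := 3) (by omega)
  obtain ⟨y, h⟩ := exists_frame_pair hF HP
  obtain ⟨t, hG⟩ := exists_good hF H hidx h
  by_cases hA : H ⊓ Tsub q e = ⊥
  · exact caseA hF H hidx h hG hZ hq h5 hA
  rcases Nat.even_or_odd q with he | ho
  · rcases plane_count hF H hidx he h.P.valid_e hA h with hfull | ⟨hs2, -⟩
    · exact not_full hF H hq hidx hH h hfull
    · obtain ⟨h8, hle⟩ := small_fields hF H hidx he h hs2 hq hG
      exact no_eight hF H hZ hidx h8 h hs2 hle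
  · exact caseB_odd hF H hidx hq ho hZ hH h.P.valid_e hA

include hF in
theorem min_index (hq : 3 ≤ q) (h5 : q ≠ 5) (H : Subgroup (P 3 F q)) (hH : H ≠ ⊤) :
    q ^ 3 + 1 ≤ H.index := by
  by_contra hlt
  refine core hF hq h5 (H.comap pr) ?_ ?_ ?_
  · conv_lhs => rw [← QuotientGroup.ker_mk' (Subgroup.center (S 3 F q))]
    exact MonoidHom.ker_le_comap _ _
  · intro h0
    refine hH ?_
    rw [← Subgroup.map_comap_eq_self_of_surjective pr_surjective H, h0,
      Subgroup.map_top_of_surjective _ pr_surjective]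
  · rw [Subgroup.index_comap_of_surjective _ pr_surjective]
    omega

include hF in
theorem attained : ∃ H : Subgroup (P 3 F q), H.index = q ^ 3 + 1 := by
  obtain ⟨e, f₀, HP⟩ := exists_pair hF (n := 3) (by omega)
  obtain ⟨y, h⟩ := exists_frame_pair hF HP
  refine ⟨(stabilizer (S 3 F q) (ln h.P.e_ne)).map pr, ?_⟩
  rw [Subgroup.index_map_eq _ pr_surjective, index_stabilizer]
  · rw [← card_pts hF h, ← Set.ncard_coe_finset]
    congr 1
    ext L
    rw [Finset.mem_coe]
    constructor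
    · rintro ⟨g, rfl⟩
      exact mem_pts.2 ((iso_smul hF g _).2 ((iso_ln hF _).2 h.P.ee))
    · intro hL
      obtain ⟨g, s, hs, hg⟩ := transitive hF h.P (n := 3) (by omega) (valid_rep hF hL)
      refine ⟨g, ?_⟩
      show g • ln h.P.e_ne = L
      rw [smul_ln, ← ln_rep L, ln_eq_iff]
      exact ⟨s, hg.symm⟩
  · rw [QuotientGroup.ker_mk']
    intro z hz
    obtain ⟨a, ha⟩ := Herm.scalar_of_mem_center_SU hF (by omega) hz
    have ha' : mat z *ᵥ e = a • e := by
      show ((z : Matrix.SpecialLinearGroup (Fin 3) F) : Matrix (Fin 3) (Fin 3) F) *ᵥ e = _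
      rw [ha, smul_mulVec, one_mulVec]
    refine (fix_ln_iff z h.P.e_ne).2 ⟨a, ?_, ha'⟩
    intro h0
    exact mulVec_ne_zero z h.P.e_ne (by rw [ha', h0, zero_smul])

end Cfsg.Agent.Lib.MinIndexU3
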