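import Cfsg.Agent.Lib.MinIndexU3.Frame
import Mathlib.LinearAlgebra.Projectivization.Action
import Mathlib.LinearAlgebra.Projectivization.Cardinality

/-!
Lines of the three-dimensional Hermitian space and their fixed lines in a non-degenerate plane.
-/

set_option autoImplicit false

namespace Cfsg.Agent.Lib.MinIndexU3

open Matrix Cfsg.Agent.Lib.AutPSU Cfsg.Agent.Lib.Classical
open scoped LinearAlgebra.Projectivization

universe u

variable {F : Type u} [Field F] {q : ℕ}

local notation "V" => (Fin 3 → F)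

/-- The lines of the space. -/
abbrev Line (F : Type u) [Field F] := ℙ F (Fin 3 → F)

/-- The line of a non-zero vector. -/
abbrev ln {v : Fin 3 → F} (hv : v ≠ 0) : Line F := Projectivization.mk F v hv

theorem smul_ln (g : S 3 F q) {v : V} (hv : v ≠ 0) :
    g • ln hv = ln (mulVec_ne_zero g hv) := rfl

theorem ln_eq_iff {v w : V} (hv : v ≠ 0) (hw : w ≠ 0) :
    ln hv = ln hw ↔ ∃ a : F, a • w = v := Projectivization.mk_eq_mk_iff' F v w hv hw

theorem ln_rep (L : Line F) : ln L.rep_nonzero = L := L.mk_rep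

theorem fix_ln_iff (g : S 3 F q) {v : V} (hv : v ≠ 0) :
    g • ln hv = ln hv ↔ ∃ a : F, a ≠ 0 ∧ mat g *ᵥ v = a • v := by
  rw [smul_ln, ln_eq_iff]
  constructor
  · rintro ⟨a, ha⟩
    refine ⟨a, fun h => mulVec_ne_zero g hv ?_, ha.symm⟩
    rw [← ha, h, zero_smul]
  · rintro ⟨a, -, ha⟩; exact ⟨a, ha.symm⟩

theorem fix_line_iff (g : S 3 F q) (L : Line F) :
    g • L = L ↔ ∃ a : F, a ≠ 0 ∧ mat g *ᵥ L.rep = a • L.rep := by
  rw [← fix_ln_iff g L.rep_nonzero, ln_rep]

theorem rep_ln {v : V} (hv : v ≠ 0) : ∃ a : F, a ≠ 0 ∧ (ln hv).rep = a • v := by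
  obtain ⟨a, ha⟩ := (ln_eq_iff (ln hv).rep_nonzero hv).1 (ln_rep _)
  refine ⟨a, fun h => (ln hv).rep_nonzero ?_, ha.symm⟩
  rw [← ha, h, zero_smul]

/-- Isotropy of a line. -/
def Iso (q : ℕ) (L : Line F) : Prop := hm q L.rep L.rep = 0

/-- Orthogonality to a vector. -/
def Perp (q : ℕ) (w : Fin 3 → F) (L : Line F) : Prop := hm q L.rep w = 0

variable [Fintype F] (hF : Fintype.card F = q ^ 2)

/-- The lines form a finite type. -/
noncomputable instance lineFintype : Fintype (Line F) := Fintype.ofFinite _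

include hF in
theorem iso_ln {v : V} (hv : v ≠ 0) : Iso q (ln hv) ↔ hm q v v = 0 := by
  obtain ⟨a, ha, e⟩ := rep_ln hv
  simp [Iso, e, hm_smul_left', hm_smul_right, ha]

include hF in
theorem perp_ln {v w : V} (hv : v ≠ 0) : Perp q w (ln hv) ↔ hm q v w = 0 := by
  obtain ⟨a, ha, e⟩ := rep_ln hv
  simp [Perp, e, hm_smul_left', ha]

include hF in
theorem iso_smul (g : S 3 F q) (L : Line F) : Iso q (g • L) ↔ Iso q L := by
  conv_lhs => rw [← ln_rep L, smul_ln, iso_ln hF, iso]
  rfl

include hF in
theorem perp_smul (g : S 3 F q) {w : V} {μ : F} (hμ : μ ≠ 0) (hg : mat g *ᵥ w = μ • w) (L : Line F) :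
    Perp q w (g • L) ↔ Perp q w L := by
  conv_lhs => rw [← ln_rep L, smul_ln, perp_ln hF]
  have := iso g L.rep w
  rw [hg, hm_smul_right] at this
  rw [Perp, ← this]
  simp [hμ]

open _root_.Classical in
/-- The isotropic points. -/
noncomputable def pts (q : ℕ) : Finset (Line F) := Finset.univ.filter (Iso q)

open _root_.Classical in
/-- The lines orthogonal to a vector. -/
noncomputable def lw (q : ℕ) (w : Fin 3 → F) : Finset (Line F) := Finset.univ.filter (Perp q w)

theorem mem_pts {L : Line F} : L ∈ pts q ↔ Iso q L := by simp [pts]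

theorem mem_lw {w : V} {L : Line F} : L ∈ lw q w ↔ Perp q w L := by simp [lw]

variable {e f y : Fin 3 → F} (h : Frame q e f y)
include h

include hF in
theorem pv_ne (a c : F) : pv e f y a c ≠ 0 := fun h0 => by
  have := (h.pv_coord hF a c).1
  rw [h0, hm_zero_left] at this
  exact zero_ne_one this

include hF in
theorem iso_cases {L : Line F} (hL : Iso q L) :
    L = ln h.P.e_ne ∨ ∃ a c, Par q a c ∧ L = ln (pv_ne hF h a c) := by
  by_cases he : hm q L.rep e = 0
  · left
    rw [← ln_rep L, ln_eq_iff]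
    exact ⟨hm q L.rep f, (h.perp_iso hF hL he).symm⟩
  · right
    set v := (hm q L.rep e)⁻¹ • L.rep
    have hv : v = pv e f y (hm q v y) (hm q v f) := by
      obtain ⟨h1, h2, h3⟩ := h.pv_coord hF (hm q v y) (hm q v f)
      exact h.vec_eq hF (by rw [h1, hm_smul_left', inv_mul_cancel₀ he]) h2.symm h3.symm
    refine ⟨hm q v y, hm q v f, ?_, ?_⟩
    · rw [← h.pv_iso hF, ← hv, hm_smul_left', hm_smul_right, hL, mul_zero, mul_zero]
    · rw [← ln_rep L, ln_eq_iff]
      exact ⟨hm q L.rep e, by rw [← hv, smul_smul, mul_inv_cancel₀ he, one_smul]⟩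

include hF in
theorem pv_ne_e (a c : F) : ln (pv_ne hF h a c) ≠ ln h.P.e_ne := fun hh => by
  obtain ⟨b, hb⟩ := (ln_eq_iff _ _).1 hh
  have := congrArg (fun z => hm q z e) hb
  simp [hm_smul_left', h.P.ee, (h.pv_coord hF a c).1] at this

include hF in
theorem pv_inj {a c a' c' : F} (hh : ln (pv_ne hF h a c) = ln (pv_ne hF h a' c')) :
    a = a' ∧ c = c' := by
  obtain ⟨b, hb⟩ := (ln_eq_iff _ _).1 hh
  have h1 := congrArg (fun z => hm q z e) hb
  have h2 := congrArg (fun z => hm q z f) hb
  have h3 := congrArg (fun z => hm q z y) hb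
  simp only [hm_smul_left', (h.pv_coord hF a c).1, (h.pv_coord hF a' c').1, mul_one] at h1
  simp only [hm_smul_left', h1, one_mul, (h.pv_coord hF a c).2.1, (h.pv_coord hF a c).2.2,
    (h.pv_coord hF a' c').2.1, (h.pv_coord hF a' c').2.2] at h2 h3
  exact ⟨h3.symm, h2.symm⟩

include hF in
theorem card_pts : (pts q : Finset (Line F)).card = q ^ 3 + 1 := by
  classical
  have e1 : (pts q : Finset (Line F)) = insert (ln h.P.e_ne)
      (((Finset.univ : Finset (F × F)).filter fun p => Par q p.1 p.2).image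
        fun p => ln (pv_ne hF h p.1 p.2)) := by
    ext L
    rw [mem_pts, Finset.mem_insert, Finset.mem_image]
    constructor
    · intro hL
      rcases iso_cases hF h hL with h1 | ⟨a, c, hp, h1⟩
      · exact Or.inl h1
      · exact Or.inr ⟨(a, c), by simpa using hp, h1.symm⟩
    · rintro (rfl | ⟨p, hp, rfl⟩)
      · exact (iso_ln hF _).2 h.P.ee
      · exact (iso_ln hF _).2 ((h.pv_iso hF _ _).2 (by simpa using hp))
  rw [e1, Finset.card_insert_of_notMem, Finset.card_image_of_injective, ← card_par hF,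
    Nat.card_eq_fintype_card, Fintype.card_subtype]
  · intro p p' hh
    exact Prod.ext (pv_inj hF h hh).1 (pv_inj hF h hh).2
  · simp only [Finset.mem_image, not_exists, not_and]
    exact fun p _ => pv_ne_e hF h _ _

include hF in
theorem perp_cases {L : Line F} (hL : Perp q y L) :
    L = ln h.P.e_ne ∨ ∃ c, L = ln (pv_ne hF h 0 c) := by
  have hx := h.expand hF L.rep
  rw [show hm q L.rep y = 0 from hL, zero_smul, add_zero] at hx
  by_cases he : hm q L.rep e = 0
  · left
    rw [he, zero_smul, add_zero] at hx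
    rw [← ln_rep L, ln_eq_iff]
    exact ⟨_, hx.symm⟩
  · right
    refine ⟨(hm q L.rep e)⁻¹ * hm q L.rep f, (ln_rep L).symm.trans ((ln_eq_iff _ _).2 ?_)⟩
    refine ⟨hm q L.rep e, Eq.trans ?_ hx.symm⟩
    rw [pv, zero_smul, add_zero, smul_add, smul_smul, mul_inv_cancel_left₀ he, add_comm]

include hF in
theorem perp_pv (c : F) : Perp q y (ln (pv_ne hF h 0 c)) :=
  (perp_ln hF _).2 (h.pv_coord hF 0 c).2.2

include hF in
theorem perp_e : Perp q y (ln h.P.e_ne) := (perp_ln hF _).2 (h.swap hF).1

include hF in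
theorem iso_pv0 (c : F) : Iso q (ln (pv_ne hF h 0 c)) ↔ Skew q c := by
  rw [iso_ln hF, h.pv_iso hF, Par, zero_pow (Nat.succ_ne_zero q), neg_zero]
  rfl

include hF in
theorem card_lw : (lw q y).card = q ^ 2 + 1 := by
  classical
  have e1 : lw q y = insert (ln h.P.e_ne)
      ((Finset.univ : Finset F).image fun c => ln (pv_ne hF h 0 c)) := by
    ext L
    rw [mem_lw, Finset.mem_insert, Finset.mem_image]
    constructor
    · intro hL
      rcases perp_cases hF h hL with h1 | ⟨c, h1⟩
      · exact Or.inl h1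
      · exact Or.inr ⟨c, Finset.mem_univ _, h1.symm⟩
    · rintro (rfl | ⟨p, -, rfl⟩)
      · exact perp_e hF h
      · exact perp_pv hF h p
  rw [e1, Finset.card_insert_of_notMem, Finset.card_image_of_injective, Finset.card_univ, hF]
  · intro c c' hh; exact (pv_inj hF h hh).2
  · simp only [Finset.mem_image, not_exists, not_and]
    exact fun p _ => pv_ne_e hF h _ _

open _root_.Classical in
include hF in
theorem card_lw_iso : ((lw q y).filter (Iso q)).card = q + 1 := by
  have e1 : (lw q y).filter (Iso q) = insert (ln h.P.e_ne)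
      (((Finset.univ : Finset F).filter (Skew q)).image fun c => ln (pv_ne hF h 0 c)) := by
    ext L
    rw [Finset.mem_filter, mem_lw, Finset.mem_insert, Finset.mem_image]
    constructor
    · rintro ⟨hL, hi⟩
      rcases perp_cases hF h hL with h1 | ⟨c, h1⟩
      · exact Or.inl h1
      · subst h1
        exact Or.inr ⟨c, by simpa using (iso_pv0 hF h c).1 hi, rfl⟩
    · rintro (rfl | ⟨p, hp, rfl⟩)
      · exact ⟨perp_e hF h, (iso_ln hF _).2 h.P.ee⟩
      · exact ⟨perp_pv hF h p, (iso_pv0 hF h p).2 (by simpa using hp)⟩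
  rw [e1, Finset.card_insert_of_notMem, Finset.card_image_of_injective]
  · congr 1
    rw [← Fintype.card_subtype, ← Nat.card_eq_fintype_card, card_skew hF]
  · intro c c' hh; exact (pv_inj hF h hh).2
  · simp only [Finset.mem_image, not_exists, not_and]
    exact fun p _ => pv_ne_e hF h _ _

open _root_.Classical in
include hF in
theorem card_lw_aniso : ((lw q y).filter fun L => ¬Iso q L).card + q = q ^ 2 := by
  have h1 := Finset.card_filter_add_card_filter_not (s := lw q y) (Iso q)
  rw [card_lw hF h, card_lw_iso hF h] at h1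
  omega

open _root_.Classical in
include hF in
/-- Two eigenlines in the plane. -/
theorem fixed_pair {g : S 3 F q} {a b : V} {α β : F} (hay : hm q a y = 0) (hby : hm q b y = 0)
    (ha : a ≠ 0) (hb : b ≠ 0) (hga : mat g *ᵥ a = α • a) (hgb : mat g *ᵥ b = β • b) (hab : α ≠ β) :
    (lw q y).filter (fun L => g • L = L) = {ln ha, ln hb} ∧ ln ha ≠ ln hb := by
  have hne : ln ha ≠ ln hb := fun hh => by
    obtain ⟨t, ht⟩ := (ln_eq_iff _ _).1 hh
    have := hga
    rw [← ht, mulVec_smul, hgb, smul_comm α t b, smul_smul, smul_smul] at this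
    have h2 := smul_left_injective F hb this
    rcases eq_or_ne t 0 with rfl | ht0
    · exact ha (by rw [← ht, zero_smul])
    · exact hab (mul_left_cancel₀ ht0 h2).symm
  have hli : LinearIndependent F ![a, b, y] := by
    refine Fintype.linearIndependent_iff.2 fun c hc => ?_
    simp only [Fin.sum_univ_three, Matrix.cons_val_zero, Matrix.cons_val_one, Matrix.cons_val_two,
      Matrix.tail_cons, Matrix.head_cons] at hc
    have h2 := congrArg (fun z => hm q z y) hc
    simp [hm_add_left, hm_smul_left', hay, hby, h.N, hm_zero_left] at h2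
    rw [h2, zero_smul, add_zero] at hc
    have h3 := congrArg (fun z => mat g *ᵥ z) hc
    simp only [mulVec_add, mulVec_smul, hga, hgb, mulVec_zero] at h3
    have h4 : (c 0 * (α - β)) • a = 0 := by
      linear_combination (norm := module) h3 - β • hc
    have h0 : c 0 = 0 := by
      rcases smul_eq_zero.1 h4 with h5 | h5
      · exact (mul_eq_zero.1 h5).resolve_right (sub_ne_zero.2 hab)
      · exact absurd h5 ha
    rw [h0, zero_smul, zero_add] at hc
    have h1 : c 1 = 0 := (smul_eq_zero.1 hc).resolve_right hb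
    intro i
    fin_cases i <;> assumption
  refine ⟨?_, hne⟩
  ext L
  rw [Finset.mem_filter, mem_lw, Finset.mem_insert, Finset.mem_singleton]
  constructor
  · rintro ⟨hL, hgL⟩
    let bs := basisOfLinearIndependentOfCardEqFinrank hli (by simp)
    have hs := bs.sum_repr L.rep
    simp only [bs, coe_basisOfLinearIndependentOfCardEqFinrank, Fin.sum_univ_three,
      Matrix.cons_val_zero, Matrix.cons_val_one, Matrix.cons_val_two, Matrix.tail_cons,
      Matrix.head_cons] at hs
    generalize (basisOfLinearIndependentOfCardEqFinrank hli _).repr L.rep = c at hs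
    have h2 := congrArg (fun z => hm q z y) hs
    simp [hm_add_left, hm_smul_left', hay, hby, h.N, show hm q L.rep y = 0 from hL] at h2
    rw [h2, zero_smul, add_zero] at hs
    obtain ⟨r, -, hr⟩ := (fix_line_iff g L).1 hgL
    rw [← hs, mulVec_add, mulVec_smul, mulVec_smul, hga, hgb] at hr
    have h3 : (c 0 * (α - r)) • a + (c 1 * (β - r)) • b = 0 := by
      linear_combination (norm := module) hr
    have h4 := Fintype.linearIndependent_iff.1 hli ![c 0 * (α - r), c 1 * (β - r), 0]
      (by simpa [Fin.sum_univ_three] using h3)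
    have h40 := h4 0
    have h41 := h4 1
    simp at h40 h41
    rcases h40 with h0 | h0
    · right
      rw [← ln_rep L, ln_eq_iff]
      exact ⟨c 1, by rw [← hs, h0, zero_smul, zero_add]⟩
    · left
      rcases h41 with h1 | h1
      · rw [← ln_rep L, ln_eq_iff]
        exact ⟨c 0, by rw [← hs, h1, zero_smul, add_zero]⟩
      · exact absurd ((sub_eq_zero.1 h0).trans (sub_eq_zero.1 h1).symm) hab
  · rintro (rfl | rfl)
    · refine ⟨(perp_ln hF ha).2 hay, ?_⟩
      rw [smul_ln, ln_eq_iff]
      exact ⟨α, hga.symm⟩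
    · refine ⟨(perp_ln hF hb).2 hby, ?_⟩
      rw [smul_ln, ln_eq_iff]
      exact ⟨β, hgb.symm⟩

open _root_.Classical in
include hF in
/-- A transvection fixes one line of the plane. -/
theorem fixed_transvection {g : S 3 F q} (hg : g ∈ Tsub q e) (hg1 : g ≠ 1) :
    (lw q y).filter (fun L => g • L = L) = {ln h.P.e_ne} := by
  obtain ⟨σ, hσ, rfl⟩ := Tsub_eq_T hF h hg
  ext L
  rw [Finset.mem_filter, mem_lw, Finset.mem_singleton]
  constructor
  · rintro ⟨hL, hgL⟩
    rcases perp_cases hF h hL with h1 | ⟨c, h1⟩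
    · exact h1
    · subst h1
      obtain ⟨r, -, hr⟩ := (fix_ln_iff _ _).1 hgL
      rw [T_mulVec hF h.P.ee hσ, (h.pv_coord hF 0 c).1, mul_one] at hr
      have h2 := congrArg (fun z => hm q z e) hr
      simp only [hm_add_left, hm_smul_left', h.P.ee, (h.pv_coord hF 0 c).1, mul_zero, add_zero,
        mul_one] at h2
      rw [← h2, one_smul, add_eq_left, smul_eq_zero] at hr
      have : σ = 0 := hr.resolve_right h.P.e_ne
      subst this
      exact absurd (T_zero hF h.P.ee) hg1
  · rintro rfl
    refine ⟨perp_e hF h, ?_⟩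
    rw [smul_ln, ln_eq_iff]
    exact ⟨1, by rw [one_smul, T_mulVec hF h.P.ee hσ, h.P.ee, mul_zero, zero_smul, add_zero]⟩

include hF in
/-- An element fixing the plane either fixes an isotropic point of it or has two orthogonal
eigenlines in it. -/
theorem plane_dichotomy {g : S 3 F q} {μ : F} (hμ : μ ≠ 0) (hg : mat g *ᵥ y = μ • y) :
    (∃ v, Valid q v ∧ hm q v y = 0 ∧ ∃ a : F, mat g *ᵥ v = a • v) ∨
    ∃ (a b : V) (α β : F), hm q a y = 0 ∧ hm q b y = 0 ∧ hm q a a ≠ 0 ∧ hm q b b ≠ 0 ∧
      hm q b a = 0 ∧ mat g *ᵥ a = α • a ∧ mat g *ᵥ b = β • b ∧ α ≠ β := by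
  have hperp : ∀ v, hm q v y = 0 → hm q (mat g *ᵥ v) y = 0 := fun v hv => by
    have h1 := iso g v y
    rw [hg, hm_smul_right, hv, mul_eq_zero] at h1
    exact h1.resolve_left (pow_ne_zero _ hμ)
  have hye := (h.swap hF).1
  have hyf := (h.swap hF).2
  set A := hm q (mat g *ᵥ e) f with hA0
  set C := hm q (mat g *ᵥ e) e with hC0
  set B := hm q (mat g *ᵥ f) f with hB0
  set D := hm q (mat g *ᵥ f) e with hD0
  have he : mat g *ᵥ e = A • e + C • f := by
    conv_lhs => rw [h.expand hF (mat g *ᵥ e), hperp e hye]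
    simp [A, C]
  have hf : mat g *ᵥ f = B • e + D • f := by
    conv_lhs => rw [h.expand hF (mat g *ᵥ f), hperp f hyf]
    simp [B, D]
  by_cases hC : C = 0
  · exact Or.inl ⟨e, h.P.valid_e, hye, A, by rw [he, hC, zero_smul, add_zero]⟩
  by_cases hB : B = 0
  · exact Or.inl ⟨f, h.P.valid_f, hyf, D, by rw [hf, hB, zero_smul, zero_add]⟩
  have r1 : A * C ^ q + C * A ^ q = 0 := by
    have := iso g e e
    rw [h.form hF, hperp e hye, h.P.ee] at this
    linear_combination this
  have r2 : B * D ^ q + D * B ^ q = 0 := by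
    have := iso g f f
    rw [h.form hF, hperp f hyf, h.P.ff] at this
    linear_combination this
  have r3 : A * D ^ q + C * B ^ q = 1 := by
    have := iso g e f
    rw [h.form hF, hperp e hye, h.P.ef] at this
    linear_combination this
  have r4 : D * A ^ q + B * C ^ q = 1 := by
    have := congrArg (· ^ q) r3
    simp only [Herm.conj_add hF, mul_pow, Herm.conj_conj hF, one_pow] at this
    linear_combination this
  set Δ := A * D - B * C with hΔ
  have dA : Δ * A ^ q = A := by rw [hΔ]; linear_combination A * r4 - B * r1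
  have dD : Δ * D ^ q = D := by rw [hΔ]; linear_combination D * r3 - C * r2
  have dB : Δ * B ^ q = -B := by rw [hΔ]; linear_combination A * r2 - B * r3
  have dC : Δ * C ^ q = -C := by rw [hΔ]; linear_combination D * r1 - C * r4
  have hΔn : Δ ^ q * Δ = 1 := by
    have h1 := congrArg (· ^ q) dC
    simp only [mul_pow, Herm.conj_conj hF, Herm.conj_neg hF] at h1
    have h2 : (Δ ^ q * Δ - 1) * C = 0 := by linear_combination Δ * h1 - dC
    exact sub_eq_zero.1 ((mul_eq_zero.1 h2).resolve_right hC)
  obtain ⟨δ, hδ0, hδ⟩ : ∃ δ : F, δ ≠ 0 ∧ δ ^ q = Δ * δ := by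
    have key : ∀ u : F, (u + Δ ^ q * u ^ q) ^ q = Δ * (u + Δ ^ q * u ^ q) := fun u => by
      rw [Herm.conj_add hF, mul_pow, Herm.conj_conj hF, Herm.conj_conj hF]
      linear_combination -(u ^ q) * hΔn
    by_cases h1 : Δ ^ q = -1
    · obtain ⟨θ, hθ⟩ := UnitaryConj.exists_moved hF
      refine ⟨θ + Δ ^ q * θ ^ q, fun h0 => hθ ?_, key θ⟩
      rw [h1] at h0
      show θ ^ q = θ
      linear_combination -h0
    · refine ⟨1 + Δ ^ q * (1 : F) ^ q, fun h0 => h1 ?_, key 1⟩
      rw [one_pow, mul_one] at h0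
      linear_combination h0
  obtain ⟨κ, hκ0, hκ⟩ := exists_skew_ne_zero hF
  have hκq : κ ^ q = -κ := by unfold Skew at hκ; linear_combination hκ
  obtain ⟨x, hx⟩ := exists_root_quad hF (u := (δ * (A - D)) / (δ * B * κ))
    (v := -(δ * C) / (δ * B * (κ * κ))) (by
      rw [div_pow, mul_pow, mul_pow, mul_pow, Herm.conj_sub hF, hδ, hκq]
      rw [show Δ * δ * (A ^ q - D ^ q) = δ * (A - D) by linear_combination δ * dA - δ * dD,
        show Δ * δ * B ^ q * -κ = δ * B * κ by linear_combination -κ * δ * dB]) (by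
      rw [div_pow, Herm.conj_neg hF, mul_pow, mul_pow, mul_pow, mul_pow, hδ, hκq]
      rw [show -(Δ * δ * C ^ q) = δ * C by linear_combination -δ * dC,
        show Δ * δ * B ^ q * (-κ * -κ) = -(δ * B * (κ * κ)) by linear_combination κ * κ * δ * dB,
        div_neg, neg_div])
  set s := κ * x with hs
  have hquad : B * (s * s) + (A - D) * s - C = 0 := by
    field_simp at hx
    rw [hs]
    linear_combination hx
  set a := e + s • f with ha
  have hga : mat g *ᵥ a = (A + B * s) • a := by
    rw [ha, mulVec_add, mulVec_smul, he, hf]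
    match_scalars
    · ring
    · linear_combination -hquad
  have haa : hm q a a = s ^ q + s := by
    simp [a, hm_add_left, hm_add_right hF, hm_smul_left', hm_smul_right, h.P.ee, h.P.ef, h.P.fe,
      h.P.ff, add_comm]
  have hay : hm q a y = 0 := by simp [a, hm_add_left, hm_smul_left', hye, hyf]
  by_cases hn : hm q a a = 0
  · refine Or.inl ⟨a, ⟨fun h0 => ?_, hn⟩, hay, _, hga⟩
    have := congrArg (fun z => hm q z f) h0
    simp [a, hm_add_left, hm_smul_left', h.P.ef, h.P.ff, hm_zero_left] at this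
  obtain ⟨c, hc⟩ : ∃ c : F, c = -s ^ q := ⟨_, rfl⟩
  set b := e + c • f with hb
  have hby : hm q b y = 0 := by simp [b, hm_add_left, hm_smul_left', hye, hyf]
  have hbb : hm q b b = -hm q a a := by
    rw [haa]
    simp [b, hm_add_left, hm_add_right hF, hm_smul_left', hm_smul_right, h.P.ee, h.P.ef, h.P.fe,
      h.P.ff]
    rw [hc, Herm.conj_neg hF, Herm.conj_conj hF]
    ring
  have hba : hm q b a = 0 := by
    simp [a, b, hm_add_left, hm_add_right hF, hm_smul_left', hm_smul_right, h.P.ee, h.P.ef, h.P.fe,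
      h.P.ff]
    rw [hc]
    ring
  have hα : A + B * s ≠ 0 := fun h0 => by
    refine mulVec_ne_zero g (x := a) ?_ (by rw [hga, h0, zero_smul])
    intro h1; rw [h1, hm_zero_left] at hn; exact hn rfl
  have hgb : mat g *ᵥ b = hm q (mat g *ᵥ b) f • b := by
    have h1 := iso g b a
    rw [hga, hm_smul_right, hba, mul_eq_zero] at h1
    have h2 := h1.resolve_left (pow_ne_zero _ hα)
    set w := mat g *ᵥ b
    have hw : w = hm q w f • e + hm q w e • f := by
      conv_lhs => rw [h.expand hF w, hperp b hby]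
      simp
    have h3 : hm q w e = -(s ^ q) * hm q w f := by
      simp only [a, hm_add_right hF, hm_smul_right] at h2
      linear_combination h2
    conv_lhs => rw [hw, h3]
    rw [hb, hc]
    module
  by_cases hd : A + B * s = hm q (mat g *ᵥ b) f
  · refine Or.inl ⟨e, h.P.valid_e, hye, A + B * s, ?_⟩
    rw [← hd] at hgb
    have h0 : s ^ q + s ≠ 0 := haa ▸ hn
    have : e = (s ^ q + s)⁻¹ • (s ^ q • a + s • b) := by
      rw [eq_inv_smul_iff₀ h0, ha, hb, hc]
      module
    rw [this, mulVec_smul, mulVec_add, mulVec_smul, mulVec_smul, hga, hgb]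
    module
  exact Or.inr ⟨a, b, _, _, hay, hby, hn, by rw [hbb]; exact neg_ne_zero.2 hn, hba, hga, hgb, hd⟩

end Cfsg.Agent.Lib.MinIndexU3
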