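import Cfsg.Agent.Lib.MinIndexU3.Points
import Cfsg.Agent.Lib.MinIndexU3.Abstract

/-!
A subgroup of `SU₃(q)` of index at most `q ^ 3`: transitivity on points and the shape of a point
stabiliser.
-/

set_option autoImplicit false

namespace Cfsg.Agent.Lib.MinIndexU3

open Matrix MulAction Cfsg.Agent.Lib.AutPSU Cfsg.Agent.Lib.Classical

universe u

variable {F : Type u} [Field F] [Fintype F] {q : ℕ} (hF : Fintype.card F = q ^ 2)

local notation "V" => (Fin 3 → F)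

include hF

theorem card_S : Nat.card (S 3 F q) = q ^ 3 * (q ^ 2 - 1) * (q ^ 3 + 1) := by
  have h1 := Herm.card_SU hF (n := 3) (by omega)
  rw [Herm.card_GU hF 3] at h1
  simp only [Finset.prod_range_succ, Finset.prod_range_zero] at h1
  norm_num [Nat.even_iff] at h1
  refine Nat.eq_of_mul_eq_mul_left (show 0 < q + 1 by omega) ?_
  rw [h1]
  ring

/-- The fixed isotropic point of a non-trivial root element is unique. -/
theorem fix_unique {v : V} (hv : Valid q v) {g : S 3 F q} (hg : g ∈ Fix q v) (hg1 : g ≠ 1)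
    {L : Line F} (hL : Iso q L) (hgL : g • L = L) : L = ln hv.1 := by
  obtain ⟨f, y, h⟩ := exists_frame hF hv
  by_contra hne
  refine hg1 (eq_one_of_fix_two hF h hg hL ?_ ((fix_line_iff g L).1 hgL).choose_spec.2)
  intro h0
  refine hne ?_
  rw [← ln_rep L, ln_eq_iff]
  exact ⟨_, (h.perp_iso hF hL h0).symm⟩

theorem valid_rep {L : Line F} (hL : L ∈ pts q) : Valid q L.rep :=
  ⟨L.rep_nonzero, mem_pts.1 hL⟩

theorem ln_mem_pts {v : V} (hv : Valid q v) : ln hv.1 ∈ pts q :=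
  mem_pts.2 ((iso_ln hF hv.1).2 hv.2)

theorem pgroup_fix {v : V} (hv : Valid q v) {p m : ℕ} (hqp : q = p ^ m) :
    IsPGroup p (Fix q v) := by
  obtain ⟨f, y, h⟩ := exists_frame hF hv
  exact IsPGroup.of_card (n := m * 3) (by rw [card_fix hF h, hqp, ← pow_mul])

variable (H : Subgroup (S 3 F q)) (hidx : H.index ≤ q ^ 3)
include hidx

/-- Transitivity on points. -/
theorem trans_pts : ∀ L ∈ (pts q : Finset (Line F)), ∀ L' ∈ (pts q : Finset (Line F)), ∃ h ∈ H, h • L = L' := by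
  obtain ⟨p, m, hp, -, hqp, -⟩ := prime_pow hF
  haveI := Fact.mk hp
  by_cases hsmall : ∃ L ∈ pts q, H ⊓ Fix q L.rep = ⊥
  · obtain ⟨L, hL, hbot⟩ := hsmall
    obtain ⟨f, y, h⟩ := exists_frame hF (valid_rep hF hL)
    let φ : Fix q L.rep → S 3 F q ⧸ H := fun u => ((u : S 3 F q) : S 3 F q ⧸ H)
    have hinj : Function.Injective φ := fun a b hab => by
      have h1 : (a : S 3 F q)⁻¹ * b ∈ H ⊓ Fix q L.rep :=
        ⟨QuotientGroup.eq.1 hab, (Fix q L.rep).mul_mem ((Fix q L.rep).inv_mem a.2) b.2⟩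
      rw [hbot, Subgroup.mem_bot, inv_mul_eq_one] at h1
      exact Subtype.ext h1
    have hsurj : Function.Surjective φ := by
      refine ((Nat.bijective_iff_injective_and_card φ).2 ⟨hinj, ?_⟩).2
      have h1 := Nat.card_le_card_of_injective φ hinj
      rw [card_fix hF h] at h1 ⊢
      rw [← Subgroup.index_eq_card] at h1 ⊢
      omega
    have move : ∀ M ∈ pts q, ∃ k ∈ H, k • L = M := by
      intro M hM
      obtain ⟨g, s, hs, hg⟩ := transitive hF h.P (n := 3) (by omega) (valid_rep hF hM)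
      have hgL : g • L = M := by
        rw [← ln_rep L, smul_ln, ← ln_rep M, ln_eq_iff]
        exact ⟨s, hg.symm⟩
      obtain ⟨u, hu⟩ := hsurj ((g⁻¹ : S 3 F q) : S 3 F q ⧸ H)
      refine ⟨g * (u : S 3 F q), ?_, ?_⟩
      · have h1 := QuotientGroup.eq.1 hu
        rw [← _root_.mul_inv_rev] at h1
        exact inv_mem_iff.1 h1
      · rw [mul_smul, show (u : S 3 F q) • L = L from (fix_line_iff _ L).2
          ⟨1, one_ne_zero, by rw [one_smul]; exact u.2⟩, hgL]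
    intro A hA B hB
    obtain ⟨a, ha, ha'⟩ := move A hA
    obtain ⟨b, hb, hb'⟩ := move B hB
    exact ⟨b * a⁻¹, mul_mem hb (inv_mem ha), by rw [mul_smul, ← ha', inv_smul_smul, hb']⟩
  · push Not at hsmall
    refine fun A hA B hB => transitive_of_semiregular (p := p) H (pts q : Finset (Line F))
      (fun g _ x hx => mem_pts.2 ((iso_smul hF g x).2 (mem_pts.1 hx))) (fun L hL => ?_) A hA B hB
    refine ⟨H ⊓ Fix q L.rep, inf_le_left,
      (pgroup_fix hF (valid_rep hF hL) hqp).to_le inf_le_right,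
      fun g hg => (fix_line_iff g L).2 ⟨1, one_ne_zero, by rw [one_smul]; exact hg.2⟩,
      fun M hM hfix => ?_⟩
    obtain ⟨⟨g, hg⟩, hg1'⟩ := Subgroup.ne_bot_iff_exists_ne_one.1 (hsmall L hL)
    have hg1 : g ≠ 1 := fun h0 => hg1' (Subtype.ext h0)
    rw [fix_unique hF (valid_rep hF hL) hg.2 hg1 (mem_pts.1 hM) (hfix g hg), ln_rep]

theorem move {v w : V} (hv : Valid q v) (hw : Valid q w) :
    ∃ h ∈ H, ∃ a : F, a ≠ 0 ∧ mat h *ᵥ v = a • w := by
  obtain ⟨g, hg, e⟩ := trans_pts hF H hidx _ (ln_mem_pts hF hv) _ (ln_mem_pts hF hw)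
  rw [smul_ln, ln_eq_iff] at e
  obtain ⟨a, ha⟩ := e
  refine ⟨g, hg, a, fun h0 => mulVec_ne_zero g hv.1 ?_, ha.symm⟩
  rw [← ha, h0, zero_smul]

theorem card_Fix_inf {v w : V} (hv : Valid q v) (hw : Valid q w) :
    Nat.card ↥(H ⊓ Fix q v) = Nat.card ↥(H ⊓ Fix q w) := by
  suffices ∀ {v w : V}, Valid q v → Valid q w →
      Nat.card ↥(H ⊓ Fix q v) ≤ Nat.card ↥(H ⊓ Fix q w) from
    le_antisymm (this hv hw) (this hw hv)
  intro v w hv hw
  obtain ⟨g, hg, a, ha, hgv⟩ := move hF H hidx hv hw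
  refine Nat.card_le_card_of_injective (fun s => ⟨g * s.1 * g⁻¹,
    H.mul_mem (H.mul_mem hg s.2.1) (H.inv_mem hg), ?_⟩) fun s t hst => ?_
  · rw [← Fix_smul ha, ← hgv]
    exact conj_mem_Fix g s.2.2
  · exact Subtype.ext (mul_left_cancel (mul_right_cancel (congrArg Subtype.val hst)))

theorem card_Tsub_inf {v w : V} (hv : Valid q v) (hw : Valid q w) :
    Nat.card ↥(H ⊓ Tsub q v) = Nat.card ↥(H ⊓ Tsub q w) := by
  suffices ∀ {v w : V}, Valid q v → Valid q w →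
      Nat.card ↥(H ⊓ Tsub q v) ≤ Nat.card ↥(H ⊓ Tsub q w) from
    le_antisymm (this hv hw) (this hw hv)
  intro v w hv hw
  obtain ⟨g, hg, a, ha, hgv⟩ := move hF H hidx hv hw
  refine Nat.card_le_card_of_injective (fun s => ⟨g * s.1 * g⁻¹,
    H.mul_mem (H.mul_mem hg s.2.1) (H.inv_mem hg), ?_⟩) fun s t hst => ?_
  · rw [← Tsub_smul ha, ← hgv]
    exact conj_mem_Tsub g s.2.2
  · exact Subtype.ext (mul_left_cancel (mul_right_cancel (congrArg Subtype.val hst)))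

variable {e f y : Fin 3 → F} (h : Frame q e f y)
include h

/-- An eigenvalue at an isotropic point is one at `e`. -/
theorem eig_transfer {v : V} (hv : Valid q v) {s : S 3 F q} (hs : s ∈ H) {a : F}
    (hsv : mat s *ᵥ v = a • v) : ∃ k ∈ H, mat k *ᵥ e = a • e := by
  obtain ⟨g, hg, b, hb, hgv⟩ := move hF H hidx hv h.P.valid_e
  refine ⟨g * s * g⁻¹, mul_mem (mul_mem hg hs) (inv_mem hg), ?_⟩
  have h1 : mat g⁻¹ *ᵥ e = b⁻¹ • v := by
    conv_rhs => rw [← mulVec_inv_cancel g v, hgv, mulVec_smul, smul_smul, inv_mul_cancel₀ hb,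
      one_smul]
  rw [mat_mul, mat_mul, ← mulVec_mulVec, ← mulVec_mulVec, h1, mulVec_smul, hsv, smul_comm,
    mulVec_smul, mulVec_smul, hgv, inv_smul_smul₀ hb]

theorem orbit_eq : orbit H (ln h.P.e_ne) = ↑(pts q : Finset (Line F)) := by
  ext L
  rw [Finset.mem_coe]
  constructor
  · rintro ⟨g, rfl⟩
    exact mem_pts.2 ((iso_smul hF (g : S 3 F q) _).2 ((iso_ln hF _).2 h.P.ee))
  · intro hL
    obtain ⟨g, hg, hgL⟩ := trans_pts hF H hidx _ (ln_mem_pts hF h.P.valid_e) L hL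
    exact ⟨⟨g, hg⟩, hgL⟩

/-- The shape of a point stabiliser. -/
theorem param : ∃ t : ℕ, t ∣ q ^ 2 - 1 ∧
    Nat.card H = (q ^ 3 + 1) * (Nat.card ↥(H ⊓ Fix q e) * t) ∧
    Nat.card ↥(H ⊓ stabilizer (S 3 F q) (ln h.P.e_ne)) = Nat.card ↥(H ⊓ Fix q e) * t ∧
    q ^ 2 - 1 ≤ Nat.card ↥(H ⊓ Fix q e) * t ∧
    ∀ a : F, (∃ s ∈ H, mat s *ᵥ e = a • e) ↔ a ^ t = 1 := by
  set He := H ⊓ stabilizer (S 3 F q) (ln h.P.e_ne)
  have eig : ∀ s : He, mat (s : S 3 F q) *ᵥ e = hm q (mat (s : S 3 F q) *ᵥ e) f • e := fun s => by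
    obtain ⟨a, -, ha⟩ := (fix_ln_iff _ _).1 s.2.2
    rw [ha, hm_smul_left', h.P.ef, mul_one]
  let χ : He →* F :=
    { toFun := fun s => hm q (mat (s : S 3 F q) *ᵥ e) f
      map_one' := by simp [mat_one, h.P.ef]
      map_mul' := fun s s' => by
        show hm q (mat ((s : S 3 F q) * (s' : S 3 F q)) *ᵥ e) f = _
        conv_lhs => rw [mat_mul, ← mulVec_mulVec, eig s', mulVec_smul, hm_smul_left', mul_comm] }
  let ψ : He →* Fˣ := χ.toHomUnits
  have hψ : ∀ s : He, ((ψ s : Fˣ) : F) = hm q (mat (s : S 3 F q) *ᵥ e) f := fun s => rfl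
  set t := Nat.card ψ.range
  have hker : Nat.card ψ.ker = Nat.card ↥(H ⊓ Fix q e) := by
    refine Nat.card_congr ⟨fun s => ⟨s.1.1, s.1.2.1, ?_⟩, fun s => ⟨⟨s.1, s.2.1, ?_⟩, ?_⟩,
      fun _ => rfl, fun _ => rfl⟩
    · show mat _ *ᵥ e = e
      rw [eig s.1, ← hψ, show ψ s.1 = 1 from s.2, Units.val_one, one_smul]
    · exact (fix_ln_iff _ _).2 ⟨1, one_ne_zero, by rw [one_smul]; exact s.2.2⟩
    · refine Units.ext ?_
      rw [hψ, Units.val_one, mem_Fix.1 s.2.2, h.P.ef]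
  have htd : t ∣ q ^ 2 - 1 := by
    rw [← card_units' hF]; exact Subgroup.card_subgroup_dvd_card _
  have hrange : ψ.range = (powMonoidHom t : Fˣ →* Fˣ).ker := by
    refine Subgroup.eq_of_le_of_card_ge (fun x hx => ?_) (le_of_eq ?_)
    · exact congrArg Subtype.val (pow_card_eq_one' (x := (⟨x, hx⟩ : ψ.range)))
    · rw [IsCyclic.card_powMonoidHom_ker, card_units' hF, Nat.gcd_eq_right htd]
  have hHe : Nat.card He = Nat.card ↥(H ⊓ Fix q e) * t := by
    rw [← ψ.ker.card_mul_index, hker, Subgroup.index_ker]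
  have hH : Nat.card H = (q ^ 3 + 1) * (Nat.card ↥(H ⊓ Fix q e) * t) := by
    rw [← hHe, ← card_orbit_mul_stab H (ln h.P.e_ne), orbit_eq hF H hidx h, Set.ncard_coe_finset,
      card_pts hF h]
  refine ⟨t, htd, hH, hHe, ?_, fun a => ⟨?_, fun ha => ?_⟩⟩
  · have h1 := H.card_mul_index
    rw [hH, card_S hF] at h1
    have h2 : Nat.card ↥(H ⊓ Fix q e) * t * H.index = q ^ 3 * (q ^ 2 - 1) := by
      refine Nat.eq_of_mul_eq_mul_left (show 0 < q ^ 3 + 1 by omega) ?_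
      rw [← mul_assoc, h1]; ring
    refine Nat.le_of_mul_le_mul_left ?_ (show 0 < q ^ 3 by
      have := Herm.two_le_q hF; positivity)
    rw [← h2, mul_comm _ H.index]
    exact Nat.mul_le_mul_right _ hidx
  · rintro ⟨s, hs, hse⟩
    have ha0 : a ≠ 0 := fun h0 => mulVec_ne_zero s h.P.e_ne (by rw [hse, h0, zero_smul])
    have hmem : s ∈ He := ⟨hs, (fix_ln_iff _ _).2 ⟨a, ha0, hse⟩⟩
    have h1 : ψ ⟨s, hmem⟩ ∈ ψ.range := ⟨_, rfl⟩
    rw [hrange, MonoidHom.mem_ker, powMonoidHom_apply] at h1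
    have h2 := congrArg Units.val h1
    rw [Units.val_pow_eq_pow_val, hψ, Units.val_one] at h2
    rwa [show mat s *ᵥ e = a • e from hse, hm_smul_left', h.P.ef, mul_one] at h2
  · have ht0 : t ≠ 0 := Nat.card_pos.ne'
    have ha0 : a ≠ 0 := fun h0 => by rw [h0, zero_pow ht0] at ha; exact zero_ne_one ha
    have h1 : Units.mk0 a ha0 ∈ ψ.range := by
      rw [hrange, MonoidHom.mem_ker, powMonoidHom_apply]
      exact Units.ext (by simpa using ha)
    obtain ⟨s, hs⟩ := h1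
    exact ⟨s.1, s.2.1, by rw [eig s, ← hψ, hs, Units.val_mk0]⟩

end Cfsg.Agent.Lib.MinIndexU3
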