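import Cfsg.Agent.Lib.MinIndexU3.Setup

/-!
Bundled parameters and small helpers.
-/

set_option autoImplicit false

namespace Cfsg.Agent.Lib.MinIndexU3

open Matrix MulAction Cfsg.Agent.Lib.AutPSU Cfsg.Agent.Lib.Classical

universe u

variable {F : Type u} [Field F] [Fintype F] {q : ℕ} (hF : Fintype.card F = q ^ 2)

local notation "V" => (Fin 3 → F)

/-- The parameters of a small-index subgroup at a point. -/
structure Good (H : Subgroup (S 3 F q)) (e : Fin 3 → F) (t : ℕ) : Prop where
  dvd : t ∣ q ^ 2 - 1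
  cardH : Nat.card H = (q ^ 3 + 1) * (Nat.card ↥(H ⊓ Fix q e) * t)
  le : q ^ 2 - 1 ≤ Nat.card ↥(H ⊓ Fix q e) * t
  eig : ∀ a : F, (∃ s ∈ H, mat s *ᵥ e = a • e) ↔ a ^ t = 1
  cardHe : ∀ (he : e ≠ 0), Nat.card ↥(H ⊓ stabilizer (S 3 F q) (ln he)) =
    Nat.card ↥(H ⊓ Fix q e) * t

include hF in
theorem exists_good (H : Subgroup (S 3 F q)) (hidx : H.index ≤ q ^ 3) {e f y : Fin 3 → F}
    (h : Frame q e f y) : ∃ t, Good H e t := by
  obtain ⟨t, h1, h2, h3, h4, h5⟩ := param hF H hidx h
  exact ⟨t, h1, h2, h4, h5, fun _ => h3⟩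

omit [Fintype F] in
/-- Powers of a triangular action. -/
theorem pow_triangular {s : S 3 F q} {e f : Fin 3 → F} {a b : F} (he : mat s *ᵥ e = a • e)
    (hf : mat s *ᵥ f = a • f + b • e) (n : ℕ) :
    mat (s ^ n) *ᵥ e = a ^ n • e ∧
      a • (mat (s ^ n) *ᵥ f) = (a ^ (n + 1)) • f + ((n : F) * a ^ n * b) • e := by
  induction n with
  | zero => simp [mat_one]
  | succ n ih =>
    constructor
    · rw [pow_succ, mat_mul, ← mulVec_mulVec, he, mulVec_smul, ih.1, smul_smul, ← pow_succ']
    · rw [pow_succ', mat_mul, ← mulVec_mulVec, ← mulVec_smul, ih.2, mulVec_add, mulVec_smul,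
        mulVec_smul, he, hf]
      simp only [Nat.cast_add, Nat.cast_one]
      module

open _root_.Classical in
/-- A stabiliser as a filter. -/
theorem card_inf_stab (K : Subgroup (S 3 F q)) (L : Line F) :
    Nat.card ↥(K ⊓ stabilizer (S 3 F q) L) =
      (((Set.toFinite (K : Set (S 3 F q))).toFinset).filter fun s => s • L = L).card := by
  rw [← SetLike.coe_sort_coe, Nat.card_coe_set_eq, ← Set.ncard_coe_finset]
  congr 1
  ext s
  simp [Subgroup.mem_inf]

open _root_.Classical in
theorem card_toFinset (K : Subgroup (S 3 F q)) :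
    ((Set.toFinite (K : Set (S 3 F q))).toFinset).card = Nat.card K := by
  rw [← SetLike.coe_sort_coe, Nat.card_coe_set_eq, Set.ncard_eq_toFinset_card]

open _root_.Classical in
/-- Double counting of fixed lines. -/
theorem sum_stab (K : Subgroup (S 3 F q)) (X : Finset (Line F)) :
    ∑ L ∈ X, Nat.card ↥(K ⊓ stabilizer (S 3 F q) L) =
      ∑ s ∈ (Set.toFinite (K : Set (S 3 F q))).toFinset, (X.filter fun L => s • L = L).card := by
  simp only [card_inf_stab, Finset.card_filter]
  exact Finset.sum_comm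

end Cfsg.Agent.Lib.MinIndexU3
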